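import Cfsg.Agent.Lib.Geometric.TensorMaps
import Cfsg.Agent.Lib.Geometric.SympAlgebra
import Cfsg.Agent.Lib.Geometric.OrthTensorMax.Sym
import Cfsg.Agent.Lib.Forms.Symplectic

/-!
A symplectic form that is the tensor product of a symplectic form in dimension at least four and a
symmetric form in dimension at least four, in odd characteristic: contractions, factorwise
isometries and similitudes, reflections.
-/

set_option autoImplicit false
set_option linter.unusedSectionVars false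

namespace CfsgLib.Geometric.SympOrth

open Matrix Tensor OrthTensor

variable {ι : Type} [Fintype ι] [DecidableEq ι] {F : Type*} [Field F]
variable {f : (ι → F) → (ι → F) → F} {n d : ℕ} {e : ι ≃ Fin n × Fin d} {P : GL ι F}
  {f₁ : (Fin n → F) → (Fin n → F) → F} {f₂ : (Fin d → F) → (Fin d → F) → F}

/-- `f` is the tensor product of `f₁` and `f₂`. -/
structure Data (f : (ι → F) → (ι → F) → F) (e : ι ≃ Fin n × Fin d) (P : GL ι F)
    (f₁ : (Fin n → F) → (Fin n → F) → F) (f₂ : (Fin d → F) → (Fin d → F) → F) : Prop where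
  symp : Cfsg.Geo.IsSymplecticForm f
  symp₁ : Cfsg.Geo.IsSymplecticForm f₁
  symm₂ : SymForm f₂
  four₁ : 4 ≤ n
  four₂ : 4 ≤ d
  form : ∀ x x' y y', f (pt e P x y) (pt e P x' y') = f₁ x x' * f₂ y y'

namespace Data

variable (hT : Data f e P f₁ f₂)
include hT

lemma two : (2 : F) ≠ 0 := hT.symm₂.two_ne

lemma three_le : 3 ≤ Fintype.card (Fin d) := by
  have := hT.four₂; simp; omega

omit hT in
/-- Contraction with `f₂(·, v)`. -/
def cc (hT : Data f e P f₁ f₂) (v : Fin d → F) : (ι → F) →ₗ[F] (Fin n → F) :=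
  con e P (hT.symm₂.fl v)

@[simp] lemma cc_pt (v : Fin d → F) (a : Fin n → F) (y : Fin d → F) :
    hT.cc v (pt e P a y) = f₂ y v • a := by simp [cc]

omit hT in
/-- Contraction with `f₁(·, u)`. -/
def dd (hT : Data f e P f₁ f₂) (u : Fin n → F) : (ι → F) →ₗ[F] (Fin d → F) :=
  conr e P (Symp.fl hT.symp₁ u)

@[simp] lemma dd_pt (u : Fin n → F) (a : Fin n → F) (y : Fin d → F) :
    hT.dd u (pt e P a y) = f₁ a u • y := by simp [dd]

lemma dd_add (u u' : Fin n → F) : hT.dd (u + u') = hT.dd u + hT.dd u' :=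
  ext_pt e P fun a y => by simp [hT.symp₁.bilinear.add_right, add_smul]

lemma dd_smul (c : F) (u : Fin n → F) : hT.dd (c • u) = c • hT.dd u :=
  ext_pt e P fun a y => by simp [hT.symp₁.bilinear.smul_right, smul_smul]

/-- Pairing with a pure tensor. -/
lemma f_pt (x : ι → F) (u : Fin n → F) (y : Fin d → F) :
    f x (pt e P u y) = f₁ (hT.cc y x) u := by
  have h : Symp.fl hT.symp (pt e P u y) = (Symp.fl hT.symp₁ u).comp (hT.cc y) :=
    ext_pt e P fun a z => by
      simp only [Symp.fl_apply, LinearMap.comp_apply, cc_pt, hT.form,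
        hT.symp₁.bilinear.smul_left]
      ring
  simpa using LinearMap.congr_fun h x

/-- Pairing with a pure tensor, contracted at the first factor. -/
lemma f_pt' (x : ι → F) (u : Fin n → F) (y : Fin d → F) :
    f x (pt e P u y) = f₂ (hT.dd u x) y := by
  have h : Symp.fl hT.symp (pt e P u y) = (hT.symm₂.fl y).comp (hT.dd u) :=
    ext_pt e P fun a z => by
      simp only [Symp.fl_apply, LinearMap.comp_apply, dd_pt, SymForm.fl_apply, hT.form,
        hT.symm₂.smul_left]
  simpa using LinearMap.congr_fun h x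

/-- Factorwise similitudes with inverse multipliers are isometries. -/
lemma kron_similitude {a : GL (Fin n) F} {b : GL (Fin d) F} {μ ν : F} (hμν : μ * ν = 1)
    (ha : ∀ x x', f₁ (ap a x) (ap a x') = μ * f₁ x x')
    (hb : ∀ y y', f₂ (ap b y) (ap b y') = ν * f₂ y y') : kron e P a b ∈ isom f := by
  let B : (ι → F) →ₗ[F] (ι → F) →ₗ[F] F := (Symp.fl hT.symp).flip
  have h : B.compl₁₂ (apEquiv (kron e P a b)).toLinearMap (apEquiv (kron e P a b)).toLinearMap = B :=
    ext_pt e P fun u z => ext_pt e P fun u' z' => by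
      simp only [B, LinearMap.compl₁₂_apply, LinearEquiv.coe_coe, apEquiv_apply, ap_kron,
        LinearMap.flip_apply, Symp.fl_apply, hT.form, ha u u', hb z z']
      linear_combination (f₁ u u' * f₂ z z') * hμν
  exact fun x y => LinearMap.congr_fun (LinearMap.congr_fun h x) y

lemma kron_isom {a : GL (Fin n) F} {b : GL (Fin d) F} (ha : a ∈ isom f₁) (hb : b ∈ isom f₂) :
    kron e P a b ∈ isom f :=
  hT.kron_similitude (one_mul (1 : F)) (fun x x' => by rw [one_mul]; exact ha x x')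
    fun y y' => by rw [one_mul]; exact hb y y'

lemma kron_mem_H {a : GL (Fin n) F} {b : GL (Fin d) F} (ha : a ∈ isom f₁) (hb : b ∈ isom f₂) :
    kron e P a b ∈ Cfsg.Geo.tensorProductSubgroup n d e P ⊓ isom f :=
  ⟨kron_mem e P a b, hT.kron_isom ha hb⟩

omit hT in
lemma kron_mul (a a' : GL (Fin n) F) (b b' : GL (Fin d) F) :
    kron e P a b * kron e P a' b' = kron e P (a * a') (b * b') :=
  gl_ext_pt e P fun x y => by simp [ap_mul]

omit hT in
lemma kron_one : kron e P (1 : GL (Fin n) F) (1 : GL (Fin d) F) = 1 :=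
  gl_ext_pt e P fun x y => by simp

/-- A transvection of the first factor. -/
lemma ap_kron_T (u : Fin n → F) (c : F) (x : ι → F) :
    ap (kron e P (Symp.T hT.symp₁ u c) (1 : GL (Fin d) F)) x = x + c • pt e P u (hT.dd u x) := by
  have h : (apEquiv (kron e P (Symp.T hT.symp₁ u c) (1 : GL (Fin d) F))).toLinearMap =
      LinearMap.id + c • (ptr e P u).comp (hT.dd u) :=
    ext_pt e P fun a y => by
      simp [Symp.ap_T, pt_add_left, pt_smul_left, smul_smul]
  exact LinearMap.congr_fun h x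

/-- A vector killed by the contractions at the orthogonal of `a` lies in `a ⊗ F^d`. -/
lemma mem_range_of_dd {a : Fin n → F} (ha : a ≠ 0) {x : ι → F}
    (h : ∀ c, f₁ a c = 0 → hT.dd c x = 0) : ∃ w, pt e P a w = x := by
  obtain ⟨p, hp⟩ := (hT.symp₁.nondegenerate a ha).2
  set p' := (f₁ a p)⁻¹ • p with hp'
  have hap : f₁ a p' = 1 := by rw [hp', hT.symp₁.bilinear.smul_right, inv_mul_cancel₀ hp]
  refine ⟨hT.dd p' x, by_contra fun hne => ?_⟩
  obtain ⟨z, hz⟩ := (hT.symp.nondegenerate _ (sub_ne_zero.mpr hne)).2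
  have hlin : (Symp.fl hT.symp).flip (pt e P a (hT.dd p' x)) = (Symp.fl hT.symp).flip x := by
    refine ext_pt e P fun u y => ?_
    simp only [LinearMap.flip_apply, Symp.fl_apply]
    rw [hT.form, hT.f_pt']
    have e1 : hT.dd (u - f₁ a u • p') x = 0 := h _ (by
      rw [Symp.sub_right hT.symp₁, hT.symp₁.bilinear.smul_right, hap, mul_one, sub_self])
    have e2 : hT.dd u x = f₁ a u • hT.dd p' x := by
      conv_lhs => rw [show u = (u - f₁ a u • p') + f₁ a u • p' by abel]
      rw [hT.dd_add, hT.dd_smul, LinearMap.add_apply, LinearMap.smul_apply, e1, zero_add]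
    rw [e2, hT.symm₂.smul_left]
  exact hz (by rw [Symp.sub_left hT.symp, sub_eq_zero]; exact LinearMap.congr_fun hlin z)

lemma ext₁ {p r : Fin n → F} (h : ∀ b, f₁ p b = f₁ r b) : p = r := by
  by_contra hne
  obtain ⟨b, hb⟩ := (hT.symp₁.nondegenerate (p - r) (sub_ne_zero.mpr hne)).2
  exact hb (by rw [Symp.sub_left hT.symp₁, h, sub_self])

lemma exists_nonzero : ∃ u : Fin n → F, u ≠ 0 :=
  ⟨Pi.single ⟨0, by have := hT.four₁; omega⟩ 1,
    fun h0 => by simpa using congrFun h0 ⟨0, by have := hT.four₁; omega⟩⟩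

lemma exists_aniso : ∃ v, f₂ v v ≠ 0 := by
  have hd := hT.four₂
  obtain ⟨y, hy⟩ := hT.symm₂.exists_ne (x := Pi.single (⟨0, by omega⟩ : Fin d) (1 : F))
    (fun h0 => by simpa using congrFun h0 ⟨0, by omega⟩)
  obtain ⟨z, -, hz⟩ := hT.symm₂.exists_aniso_in (K := ⊤) Submodule.mem_top Submodule.mem_top hy
  exact ⟨z, hz⟩

/-- Similitudes of the first factor with prescribed multiplier act transitively. -/
lemma exists_similitude₁ {c : F} (hc : c ≠ 0) {x y : Fin n → F} (hx : x ≠ 0) (hy : y ≠ 0) :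
    ∃ h : GL (Fin n) F, (∀ u v, f₁ (ap h u) (ap h v) = c * f₁ u v) ∧ ap h x = y := by
  let B : LinearMap.BilinForm F (Fin n → F) := (Symp.fl hT.symp₁).flip
  have hB : ∀ u v, B u v = f₁ u v := fun u v => rfl
  have hBnd : B.Nondegenerate :=
    ⟨fun u hu => by_contra fun h => by
        obtain ⟨v, hv⟩ := (hT.symp₁.nondegenerate u h).2
        exact hv (hu v),
      fun v hv => by_contra fun h => by
        obtain ⟨u, hu⟩ := (hT.symp₁.nondegenerate v h).1
        exact hu (hv u)⟩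
  have hBalt : B.IsAlt := fun u => hT.symp₁.alternating u
  have hcnd : (c • B).Nondegenerate :=
    ⟨fun u hu => hBnd.1 u fun v => (mul_eq_zero.mp (hu v)).resolve_left hc,
      fun v hv => hBnd.2 v fun u => (mul_eq_zero.mp (hv u)).resolve_left hc⟩
  have hcalt : (c • B).IsAlt := fun u => by
    rw [LinearMap.smul_apply, LinearMap.smul_apply, hBalt u, smul_zero]
  obtain ⟨σ, hσ⟩ := CfsgLib.Forms.alt_isometric (c • B) hcnd hcalt B hBnd hBalt rfl
  have hσ' : ∀ u v, f₁ (σ u) (σ v) = c * f₁ u v := fun u v => hσ u v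
  have hne : σ x ≠ 0 := fun h => hx (σ.map_eq_zero_iff.mp h)
  obtain ⟨k, hk, hky⟩ := Symp.exists_isom_map hT.symp₁ hne hy
  refine ⟨k * ofEquiv σ, fun u v => ?_, ?_⟩
  · rw [ap_mul, ap_mul, mem_isom_iff.mp hk, ap_ofEquiv, ap_ofEquiv, hσ']
  · rw [ap_mul, ap_ofEquiv, hky]

/-- A symmetry of the tensor decomposition preserving the form is a product of similitudes. -/
lemma factor {g : GL ι F} (hg : g ∈ Cfsg.Geo.tensorProductSubgroup n d e P) (hgI : g ∈ isom f) :
    ∃ (a : GL (Fin n) F) (b : GL (Fin d) F) (μ : F), μ ≠ 0 ∧ g = kron e P a b ∧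
      (∀ x x', f₁ (ap a x) (ap a x') = μ * f₁ x x') ∧
      ∀ y y', f₂ (ap b y) (ap b y') = μ⁻¹ * f₂ y y' := by
  obtain ⟨a, b, hab⟩ := (mem_iff e P g).mp hg
  have key : ∀ x x' y y', f₁ (ap a x) (ap a x') * f₂ (ap b y) (ap b y') = f₁ x x' * f₂ y y' :=
    fun x x' y y' => by rw [← hT.form, ← hab, ← hab, mem_isom_iff.mp hgI, hT.form]
  obtain ⟨x₀, hx₀⟩ := hT.exists_nonzero
  obtain ⟨x₁, hx₁⟩ := (hT.symp₁.nondegenerate x₀ hx₀).2
  set μ := f₁ (ap a x₀) (ap a x₁) / f₁ x₀ x₁ with hμ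
  have hb : ∀ y y', μ * f₂ (ap b y) (ap b y') = f₂ y y' := fun y y' => by
    rw [hμ, div_mul_eq_mul_div, key]
    field_simp
  obtain ⟨v, hv⟩ := hT.exists_aniso
  have hμ0 : μ ≠ 0 := fun h0 => hv (by rw [← hb, h0, zero_mul])
  refine ⟨a, b, μ, hμ0, gl_ext_pt e P fun x y => by rw [hab, ap_kron], fun x x' => ?_,
    fun y y' => by rw [← hb y y', ← mul_assoc, inv_mul_cancel₀ hμ0, one_mul]⟩
  have h1 := key x x' v v
  have h2 := hb v v
  refine mul_right_cancel₀ hv ?_
  linear_combination μ * h1 - f₁ (ap a x) (ap a x') * h2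

omit hT in
/-- The reflection of the second factor at `v`. -/
noncomputable def r (hT : Data f e P f₁ f₂) (v : Fin d → F) : GL (Fin d) F :=
  Orth.rf hT.symm₂.sq v

lemma ap_r (v x : Fin d → F) :
    ap (hT.r v) x = x - (2 / f₂ v v * f₂ x v) • v := by
  have := hT.two
  rw [r, Orth.ap_rf, SymForm.polar_sq, SymForm.sq_apply]
  congr 2
  rw [mul_inv, inv_inv, div_eq_mul_inv]

lemma r_mem (v : Fin d → F) : hT.r v ∈ isom f₂ := by
  rw [← hT.symm₂.isometryGroup_sq]
  exact Orth.rf_mem_isom v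

lemma ap_r_self {v : Fin d → F} (hv : f₂ v v ≠ 0) : ap (hT.r v) v = -v := by
  rw [hT.ap_r, div_mul_cancel₀ _ hv]
  module

lemma ap_r_perp {v x : Fin d → F} (h : f₂ x v = 0) : ap (hT.r v) x = x := by
  rw [hT.ap_r, h, mul_zero, zero_smul, sub_zero]

lemma r_mul_self {v : Fin d → F} (hv : f₂ v v ≠ 0) : hT.r v * hT.r v = 1 :=
  gl_ext fun x => by
    rw [ap_mul, ap_one]
    conv_lhs => arg 2; rw [hT.ap_r]
    rw [ap_sub, ap_smul, hT.ap_r_self hv, hT.ap_r]
    module

omit hT in
/-- The reflection on the whole space. -/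
noncomputable def R (hT : Data f e P f₁ f₂) (v : Fin d → F) : GL ι F :=
  kron e P (1 : GL (Fin n) F) (hT.r v)

lemma R_mem (v : Fin d → F) : hT.R v ∈ Cfsg.Geo.tensorProductSubgroup n d e P ⊓ isom f :=
  hT.kron_mem_H (one_mem _) (hT.r_mem v)

lemma ap_R (v : Fin d → F) (x : ι → F) :
    ap (hT.R v) x = x - (2 / f₂ v v) • pt e P (hT.cc v x) v := by
  have h : (apEquiv (hT.R v)).toLinearMap =
      LinearMap.id - (2 / f₂ v v) • (ptl e P v).comp (hT.cc v) :=
    ext_pt e P fun a y => by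
      simp only [R, LinearEquiv.coe_coe, apEquiv_apply, ap_kron, ap_one, hT.ap_r, pt_sub_right,
        pt_smul_right, LinearMap.sub_apply, LinearMap.id_apply, LinearMap.smul_apply,
        LinearMap.comp_apply, ptl_apply, cc_pt, pt_smul_left, smul_smul]
  exact LinearMap.congr_fun h x

end Data

end CfsgLib.Geometric.SympOrth
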