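import Cfsg.Agent.Lib.Geometric.SympOrth.Finish
import Cfsg.Agent.Lib.Geometric.SympAlgebra

/-!
Quadratic unipotent isometries of the first factor: their centralisers in an overgroup lie in the
stabiliser, and so do the elements conjugating them into it. Every similitude of the first factor
with scalar square commutes with one of them; consequently the plane involutions have the same two
properties.
-/

set_option autoImplicit false
set_option linter.unusedSectionVars false

namespace CfsgLib.Geometric.SympOrth.Data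

open Matrix Tensor OrthTensor

variable {ι : Type} [Fintype ι] [DecidableEq ι] {F : Type*} [Field F]
variable {f : (ι → F) → (ι → F) → F} {n d : ℕ} {e : ι ≃ Fin n × Fin d} {P : GL ι F}
  {f₁ : (Fin n → F) → (Fin n → F) → F} {f₂ : (Fin d → F) → (Fin d → F) → F}

/-- A non-trivial isometry of the first factor whose difference from the identity has square
zero. -/
structure IsQuad (f₁ : (Fin n → F) → (Fin n → F) → F) (α : GL (Fin n) F) : Prop where
  isometry : α ∈ isom f₁
  sq : ∀ x, ap α (ap α x) - (2 : F) • ap α x + x = 0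
  ne_one : α ≠ 1

section
variable (hT : Data f e P f₁ f₂)
include hT

/-- Products of two transvections with orthogonal centres. -/
lemma ap_TT (u v : Fin n → F) (i j : F) (h : f₁ u v = 0) (x : Fin n → F) :
    ap (Symp.T hT.symp₁ u i * Symp.T hT.symp₁ v j) x =
      x + (i * f₁ x u) • u + (j * f₁ x v) • v := by
  simp only [ap_mul, Symp.ap_T hT.symp₁, hT.symp₁.bilinear.add_left, hT.symp₁.bilinear.smul_left,
    (Symp.eq_zero_comm hT.symp₁).mp h]
  module

lemma isQuad_TT {u v : Fin n → F} {i j : F} (h : f₁ u v = 0)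
    (hne : Symp.T hT.symp₁ u i * Symp.T hT.symp₁ v j ≠ 1) :
    IsQuad f₁ (Symp.T hT.symp₁ u i * Symp.T hT.symp₁ v j) := by
  refine ⟨mul_mem (Symp.T_mem_isom hT.symp₁ u i) (Symp.T_mem_isom hT.symp₁ v j), fun x => ?_, hne⟩
  simp only [hT.ap_TT u v i j h, hT.symp₁.bilinear.add_left, hT.symp₁.bilinear.smul_left,
    hT.symp₁.alternating, h, (Symp.eq_zero_comm hT.symp₁).mp h, mul_zero, add_zero, zero_mul]
  module

lemma TT_ne_one {u v : Fin n → F} {i j : F} (h : f₁ u v = 0) (hu : u ≠ 0)
    (hv : v ∉ Submodule.span F {u}) (hij : i ≠ 0 ∨ j ≠ 0) :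
    Symp.T hT.symp₁ u i * Symp.T hT.symp₁ v j ≠ 1 := by
  intro h1
  have key : ∀ x, (i * f₁ x u) • u + (j * f₁ x v) • v = 0 := fun x => by
    have h2 := hT.ap_TT u v i j h x
    rw [h1, ap_one, add_assoc, left_eq_add] at h2
    exact h2
  have hj : ∀ x, j * f₁ x v = 0 := fun x => by
    by_contra h0
    refine hv (Submodule.mem_span_singleton.mpr ⟨-((j * f₁ x v)⁻¹ * (i * f₁ x u)), ?_⟩)
    apply smul_right_injective _ h0
    show (j * f₁ x v) • (-((j * f₁ x v)⁻¹ * (i * f₁ x u)) • u) = (j * f₁ x v) • v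
    rw [smul_smul, mul_neg, ← mul_assoc, mul_inv_cancel₀ h0, one_mul, neg_smul]
    linear_combination (norm := module) -(key x)
  have hi : ∀ x, i * f₁ x u = 0 := fun x => by
    have := key x
    rw [hj x, zero_smul, add_zero, smul_eq_zero] at this
    exact this.resolve_right hu
  obtain ⟨x, hx⟩ := (hT.symp₁.nondegenerate u hu).1
  obtain ⟨y, hy⟩ := (hT.symp₁.nondegenerate v (fun h0 => hv (h0 ▸ Submodule.zero_mem _))).1
  rcases hij with hi0 | hj0
  · exact mul_ne_zero hi0 hx (hi x)
  · exact mul_ne_zero hj0 hy (hj y)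

lemma isQuad_T {u : Fin n → F} (hu : u ≠ 0) : IsQuad f₁ (Symp.T hT.symp₁ u 1) := by
  refine ⟨Symp.T_mem_isom hT.symp₁ u 1, fun x => ?_, fun h1 => ?_⟩
  · simp only [Symp.ap_T hT.symp₁, hT.symp₁.bilinear.add_left, hT.symp₁.bilinear.smul_left,
      hT.symp₁.alternating, mul_zero, add_zero]
    module
  · obtain ⟨x, hx⟩ := (hT.symp₁.nondegenerate u hu).1
    have h2 := Symp.ap_T hT.symp₁ u 1 x
    rw [h1, ap_one, left_eq_add, one_mul, smul_eq_zero] at h2
    exact hu (h2.resolve_left hx)

/-- A similitude with scalar square commutes with a quadratic unipotent isometry. -/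
lemma exists_quad_comm [Finite F] {a : GL (Fin n) F} {t μ : F} (hμ : μ ≠ 0)
    (ht : ∀ x, ap a (ap a x) = t • x) (ha : ∀ x y, f₁ (ap a x) (ap a y) = μ * f₁ x y) :
    ∃ α, IsQuad f₁ α ∧ a * α = α * a := by
  classical
  have hn := hT.four₁
  have h2 := hT.two
  have hflip : ∀ x y, t * f₁ x (ap a y) = μ * f₁ (ap a x) y := fun x y => by
    rw [← hT.symp₁.bilinear.smul_left, ← ht, ha]
  have hμt : μ * μ = t * t := by
    obtain ⟨x, hx⟩ := hT.exists_nonzero
    obtain ⟨y, hy⟩ := (hT.symp₁.nondegenerate x hx).2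
    refine mul_right_cancel₀ hy ?_
    have h1 := ha (ap a x) (ap a y)
    rw [ht, ht, hT.symp₁.bilinear.smul_left, hT.symp₁.bilinear.smul_right, ha] at h1
    linear_combination -h1
  have ht0 : t ≠ 0 := fun h => hμ (mul_self_eq_zero.mp (by rw [hμt, h, mul_zero]))
  -- the pair of transvections at `u` and its image
  have pair : ∀ u, f₁ u (ap a u) = 0 → u ≠ 0 → ap a u ∉ Submodule.span F {u} →
      ∃ α, IsQuad f₁ α ∧ a * α = α * a := by
    intro u hu hu0 hind
    refine ⟨Symp.T hT.symp₁ u 1 * Symp.T hT.symp₁ (ap a u) μ⁻¹,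
      hT.isQuad_TT hu (hT.TT_ne_one hu hu0 hind (Or.inl one_ne_zero)), gl_ext fun x => ?_⟩
    have e1 : f₁ (ap a x) u = μ⁻¹ * f₁ x (ap a u) * t := by
      field_simp
      linear_combination -(hflip x u)
    rw [ap_mul a, ap_mul _ a, hT.ap_TT _ _ _ _ hu, hT.ap_TT _ _ _ _ hu, ha, ap_add, ap_add,
      ap_smul, ap_smul, ht, e1]
    match_scalars <;> field_simp
  by_cases hne : ∃ u, u ≠ 0 ∧ ∃ c : F, ap a u = c • u
  · obtain ⟨u, hu, c, hc⟩ := hne
    have hc2 : c * c = t := smul_left_injective F hu (by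
      show (c * c) • u = t • u
      rw [← ht, hc, ap_smul, hc, smul_smul])
    have hc0 : c ≠ 0 := fun h => ht0 (by rw [← hc2, h, mul_zero])
    by_cases hμc : μ = c * c
    · refine ⟨_, hT.isQuad_T hu, gl_ext fun x => ?_⟩
      have e1 : f₁ (ap a x) u = c * f₁ x u := by
        refine mul_left_cancel₀ hc0 ?_
        rw [← hT.symp₁.bilinear.smul_right, ← hc, ha, hμc]
        ring
      rw [ap_mul, ap_mul, Symp.ap_T hT.symp₁, Symp.ap_T hT.symp₁, ap_add, ap_smul, hc, e1,
        smul_smul]
      congr 2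
      ring
    have hμneg : μ = -(c * c) :=
      (mul_self_eq_mul_self_iff.mp (show μ * μ = c * c * (c * c) by rw [hμt, hc2])).resolve_left hμc
    obtain ⟨q, hq⟩ : ∃ q, ap a q - c • q ≠ 0 := by
      by_contra hall
      push Not at hall
      obtain ⟨y, hy⟩ := (hT.symp₁.nondegenerate u hu).2
      have := ha u y
      rw [sub_eq_zero.mp (hall u), sub_eq_zero.mp (hall y), hT.symp₁.bilinear.smul_left,
        hT.symp₁.bilinear.smul_right, ← mul_assoc] at this
      exact hμc (mul_right_cancel₀ hy this).symm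
    set q' := ap a q - c • q with hq'
    have haq : ap a q' = -c • q' := by
      rw [hq', ap_sub, ap_smul, ht, ← hc2]
      module
    -- the negative eigenspace is totally isotropic
    set K := LinearMap.ker ((apEquiv a).toLinearMap + c • LinearMap.id) with hK
    have hKm : ∀ x, x ∈ K ↔ ap a x + c • x = 0 := fun x => by simp [hK]
    have hiso : ∀ x ∈ K, ∀ y ∈ K, f₁ x y = 0 := fun x hx y hy => by
      have h1 := ha x y
      rw [eq_neg_of_add_eq_zero_left ((hKm x).mp hx), eq_neg_of_add_eq_zero_left ((hKm y).mp hy),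
        Symp.neg_left hT.symp₁, Symp.neg_right hT.symp₁, hT.symp₁.bilinear.smul_left,
        hT.symp₁.bilinear.smul_right, hμneg] at h1
      exact (mul_eq_zero.mp (show (2 * (c * c)) * f₁ x y = 0 by
        linear_combination h1)).resolve_left (mul_ne_zero h2 (mul_ne_zero hc0 hc0))
    obtain ⟨x, hx1, hx2⟩ : ∃ x, f₁ (ap a x + c • x) q' = 0 ∧ ap a x + c • x ≠ 0 := by
      by_contra hall
      push Not at hall
      let Φ : (Fin n → F) →ₗ[F] F :=
        (Symp.fl hT.symp₁ q').comp ((apEquiv a).toLinearMap + c • LinearMap.id)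
      have hle : LinearMap.ker Φ ≤ K := fun x hx => (hKm x).mpr (hall x (by simpa [Φ] using hx))
      have e1 := Submodule.finrank_mono hle
      have e2 := two_mul_finrank_le hT.symp₁.bilinear (fun v hv => (hT.symp₁.nondegenerate v hv).2)
        K hiso
      have e3 := Φ.finrank_range_add_finrank_ker
      have e4 := Submodule.finrank_le (LinearMap.range Φ)
      rw [Module.finrank_self] at e4
      rw [Fintype.card_fin] at e2
      rw [Module.finrank_fin_fun] at e3
      omega
    set p := ap a x + c • x with hp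
    have hap : ap a p = c • p := by
      rw [hp, ap_add, ap_smul, ht, ← hc2]
      module
    clear_value p q'
    refine pair (p + q') ?_ ?_ ?_
    · rw [ap_add, hap, haq]
      simp only [hT.symp₁.bilinear.add_left, hT.symp₁.bilinear.add_right,
        hT.symp₁.bilinear.smul_right, hT.symp₁.alternating, hx1,
        (Symp.eq_zero_comm hT.symp₁).mp hx1]
      ring
    · intro h0
      have h1 := congrArg (ap a) h0
      rw [ap_add, hap, haq, ap_zero] at h1
      exact hx2 ((smul_eq_zero.mp (show (2 * c) • p = 0 by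
        linear_combination (norm := module) h1 + c • h0)).resolve_left (mul_ne_zero h2 hc0))
    · intro hm
      obtain ⟨l, hl⟩ := Submodule.mem_span_singleton.mp hm
      rw [ap_add, hap, haq] at hl
      have h1 := congrArg (ap a) hl
      rw [ap_smul, ap_add, ap_add, ap_smul, ap_smul, hap, haq] at h1
      have e1 : (2 * c * (l - c)) • p = 0 := by
        linear_combination (norm := module) h1 + c • hl
      have e2 : (2 * c * (l + c)) • q' = 0 := by
        linear_combination (norm := module) c • hl - h1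
      have l1 := (smul_eq_zero.mp e1).resolve_right hx2
      have l2 := (smul_eq_zero.mp e2).resolve_right hq
      exact mul_ne_zero (mul_ne_zero (mul_ne_zero h2 hc0) h2) hc0 (by linear_combination l2 - l1)
  · push Not at hne
    obtain ⟨u, hu, hu0⟩ : ∃ u, f₁ u (ap a u) = 0 ∧ u ≠ 0 := by
      rcases mul_self_eq_mul_self_iff.mp hμt with h | h
      · obtain ⟨u, hu⟩ := hT.exists_nonzero
        refine ⟨u, (mul_eq_zero.mp (show (2 * t) * f₁ u (ap a u) = 0 from ?_)).resolve_left
          (mul_ne_zero h2 ht0), hu⟩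
        have := hflip u u
        rw [h, hT.symp₁.skew (ap a u) u] at this
        linear_combination this
      · have hsym : ∀ x y, f₁ x (ap a y) = f₁ y (ap a x) := fun x y => mul_left_cancel₀ ht0 (by
          rw [hflip, h, hT.symp₁.skew (ap a x) y]; ring)
        have hS : SymForm (fun x y : Fin n → F => f₁ x (ap a y)) :=
          ⟨h2,
            { bilinear :=
                { add_left := fun x y v => hT.symp₁.bilinear.add_left x y _
                  smul_left := fun c x v => hT.symp₁.bilinear.smul_left c x _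
                  add_right := fun v x y => by rw [ap_add, hT.symp₁.bilinear.add_right]
                  smul_right := fun c v x => by rw [ap_smul, hT.symp₁.bilinear.smul_right] }
              symm := hsym
              nondegenerate := fun x hx => by
                obtain ⟨y, hy⟩ := (hT.symp₁.nondegenerate x hx).2
                obtain ⟨z, rfl⟩ : ∃ z, ap a z = y := ⟨_, ap_ap_inv a y⟩
                exact ⟨⟨z, show f₁ z (ap a x) ≠ 0 by rwa [hsym]⟩, ⟨z, hy⟩⟩ }⟩
        obtain ⟨u, hu0, hu⟩ := hS.exists_isotropic (by rw [Fintype.card_fin]; omega)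
        exact ⟨u, hu, hu0⟩
    exact pair u hu hu0 fun hm => by
      obtain ⟨c, hc⟩ := Submodule.mem_span_singleton.mp hm
      exact hne u hu0 c hc.symm

end

variable [Finite F] (hT : Data f e P f₁ f₂) {M : Subgroup (GL ι F)} (hM : hT.Small M)
include hT hM

local notation "H₀" => Cfsg.Geo.tensorProductSubgroup n d e P

lemma quad_mem {α : GL (Fin n) F} (hα : IsQuad f₁ α) : kron e P α (1 : GL (Fin d) F) ∈ M :=
  hT.kron_mem_M hM hα.isometry (one_mem _)

/-- The centraliser of a quadratic unipotent of the first factor lies in the stabiliser. -/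
lemma mem_of_comm_quad {α : GL (Fin n) F} (hα : IsQuad f₁ α) {k : GL ι F} (hk : k ∈ M)
    (hc : k * kron e P α (1 : GL (Fin d) F) = kron e P α (1 : GL (Fin d) F) * k) : k ∈ H₀ := by
  obtain ⟨r, hr⟩ : ∃ r, ap α r - r ≠ 0 := by
    by_contra hall
    push Not at hall
    exact hα.ne_one (gl_ext fun x => by rw [ap_one]; exact sub_eq_zero.mp (hall x))
  set w := ap α r - r with hwdef
  have hw : ap α w = w := by
    rw [hwdef, ap_sub]
    linear_combination (norm := module) hα.sq r
  refine hT.mem_of_ortho hM hr hr hk fun y y' => ?_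
  set A := kron e P α (1 : GL (Fin d) F) with hA
  have h1 : ap k (pt e P w y) = ap A (ap k (pt e P r y)) - ap k (pt e P r y) := by
    rw [hwdef, pt_sub_left, ap_sub, ← ap_mul A, ← hc, ap_mul, hA, ap_kron, ap_one]
  have h2 : f (ap A (ap k (pt e P r y))) (pt e P w y') = f (ap k (pt e P r y)) (pt e P w y') := by
    conv_lhs => rw [show pt e P w y' = ap A (pt e P w y') by rw [hA, ap_kron, hw, ap_one]]
    exact mem_isom_iff.mp (hT.kron_isom hα.isometry (one_mem _)) _ _
  rw [h1, Symp.sub_left hT.symp, h2, sub_self]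

/-- An element conjugating a quadratic unipotent of the first factor into the stabiliser lies
there. -/
lemma mem_of_conj_quad {α : GL (Fin n) F} (hα : IsQuad f₁ α) {g : GL ι F} (hg : g ∈ M)
    (h : g * kron e P α (1 : GL (Fin d) F) * g⁻¹ ∈ H₀) : g ∈ H₀ := by
  set A := kron e P α (1 : GL (Fin d) F) with hA
  have hAM : A ∈ M := hT.quad_mem hM hα
  have hq : ∀ x, ap (g * A * g⁻¹) (ap (g * A * g⁻¹) x) - (2 : F) • ap (g * A * g⁻¹) x + x = 0 := by
    intro x
    obtain ⟨z, rfl⟩ : ∃ z, ap g z = x := ⟨_, ap_ap_inv g x⟩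
    have h1 := LinearMap.congr_fun (ext_pt e P
      (f := (apEquiv A).toLinearMap ∘ₗ (apEquiv A).toLinearMap -
        (2 : F) • (apEquiv A).toLinearMap + LinearMap.id) (g := (0 : (ι → F) →ₗ[F] (ι → F)))
      fun a y => by
        simp only [LinearMap.add_apply, LinearMap.sub_apply, LinearMap.smul_apply,
          LinearMap.comp_apply, LinearEquiv.coe_coe, apEquiv_apply, LinearMap.id_apply,
          LinearMap.zero_apply, hA, ap_kron, ap_one]
        rw [← pt_smul_left, ← pt_sub_left, ← pt_add_left, hα.sq, pt_zero_left]) z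
    simp only [LinearMap.add_apply, LinearMap.sub_apply, LinearMap.smul_apply,
      LinearMap.comp_apply, LinearEquiv.coe_coe, apEquiv_apply, LinearMap.id_apply,
      LinearMap.zero_apply] at h1
    have hy : ∀ x, ap (g * A * g⁻¹) (ap g x) = ap g (ap A x) := fun x => by
      rw [ap_mul, ap_mul, ap_inv_ap]
    rw [hy, hy, ← ap_smul, ← ap_sub, ← ap_add, h1, ap_zero]
  rcases hT.factor_quadratic h (hM.le_isom (mul_mem (mul_mem hg hAM) (inv_mem hg))) hq with
    ⟨a, -, hy⟩ | ⟨b, -, hy⟩
  · obtain ⟨v₀, hv₀⟩ := hT.exists_aniso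
    have hv0 : v₀ ≠ 0 := fun h0 => hv₀ (by rw [h0, hT.symm₂.zero_left])
    have ha2 : ∀ x, ap a (ap a x) - (2 : F) • ap a x + x = 0 := fun x => by
      have h1 := hq (pt e P x v₀)
      rw [hy] at h1
      simp only [ap_kron, ap_one, ← pt_smul_left, ← pt_sub_left, ← pt_add_left] at h1
      by_contra h0
      exact pt_ne_zero e P h0 hv0 h1
    obtain ⟨r', hr'⟩ : ∃ r', ap a r' - r' ≠ 0 := by
      by_contra hall
      push Not at hall
      have ha1 : a = 1 := gl_ext fun x => by rw [ap_one]; exact sub_eq_zero.mp (hall x)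
      rw [ha1, kron_one, conj_eq_one_iff] at hy
      exact hα.ne_one (hT.kron_left_inj (by rw [kron_one]; exact hy))
    set w' := ap a r' - r' with hw'def
    have hw' : ap a w' = w' := by
      rw [hw'def, ap_sub]
      linear_combination (norm := module) ha2 r'
    obtain ⟨r, hr⟩ : ∃ r, ap α r - r ≠ 0 := by
      by_contra hall
      push Not at hall
      exact hα.ne_one (gl_ext fun x => by rw [ap_one]; exact sub_eq_zero.mp (hall x))
    refine hT.mem_of_ortho hM hr hr' hg fun y y' => ?_
    set Y := kron e P a (1 : GL (Fin d) F) with hY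
    have hYI : Y ∈ isom f := hy ▸ hM.le_isom (mul_mem (mul_mem hg hAM) (inv_mem hg))
    have h1 : ap g (pt e P (ap α r - r) y) =
        ap Y (ap g (pt e P r y)) - ap g (pt e P r y) := by
      rw [pt_sub_left, ap_sub, ← hy, ap_mul, ap_mul, ap_inv_ap, hA, ap_kron, ap_one]
    have h2 : f (ap Y (ap g (pt e P r y))) (pt e P w' y') =
        f (ap g (pt e P r y)) (pt e P w' y') := by
      conv_lhs => rw [show pt e P w' y' = ap Y (pt e P w' y') by rw [hY, ap_kron, hw', ap_one]]
      exact mem_isom_iff.mp hYI _ _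
    rw [h1, Symp.sub_left hT.symp, h2, sub_self]
  · obtain ⟨u, hu⟩ := hT.exists_nonzero
    set T := kron e P (Symp.T hT.symp₁ u 1) (1 : GL (Fin d) F) with hTdef
    have hk : g⁻¹ * T * g ∈ H₀ := by
      refine hT.mem_of_comm_quad hM hα (mul_mem (mul_mem (inv_mem hg) (hT.T₁_mem hM u)) hg) ?_
      rw [← hA]
      have e1 : g * A * g⁻¹ * T = T * (g * A * g⁻¹) := by
        rw [hy, hTdef, kron_mul, kron_mul, mul_one, one_mul, one_mul, mul_one]
      calc g⁻¹ * T * g * A = g⁻¹ * (T * (g * A * g⁻¹)) * g := by group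
        _ = g⁻¹ * (g * A * g⁻¹ * T) * g := by rw [e1]
        _ = A * (g⁻¹ * T * g) := by group
    have := hT.mem_of_conj_T hM hu (inv_mem hg) (by rwa [inv_inv])
    simpa using inv_mem this

/-- The centraliser of a plane involution of the first factor lies in the stabiliser. -/
lemma mem_of_comm_pl {u p : Fin n → F} (hup : f₁ u p = 1) {k : GL ι F} (hk : k ∈ M)
    (hc : k * kron e P (hT.pl hup) (1 : GL (Fin d) F) =
      kron e P (hT.pl hup) (1 : GL (Fin d) F) * k) : k ∈ H₀ := by
  obtain ⟨w, hw, hwu, hwp⟩ := hT.exists_perp_plane u p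
  refine hT.mem_of_comm_eigen hM (hT.pl_mem hup) hk (ε := 1)
    (fun x => by rw [← ap_mul, hc, ap_mul, one_smul]) (u := u) (w := w)
    (fun h0 => one_ne_zero (α := F) (by rw [← hup, h0, Symp.zero_left hT.symp₁])) hw
    (l := -1) (m := 1) (by rw [hT.ap_pl_left hup, neg_one_smul])
    (by rw [hT.ap_pl_fix hup hwu hwp, one_smul]) fun h => hT.two (by linear_combination -h)

/-- An element conjugating a plane involution of the first factor into the stabiliser lies
there. -/
lemma mem_of_conj_pl {u p : Fin n → F} (hup : f₁ u p = 1) {g : GL ι F} (hg : g ∈ M)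
    (h : g * kron e P (hT.pl hup) (1 : GL (Fin d) F) * g⁻¹ ∈ H₀) : g ∈ H₀ := by
  set p₁ := kron e P (hT.pl hup) (1 : GL (Fin d) F) with hp₁
  have hp2 : p₁ * p₁ = 1 := by rw [hp₁, kron_mul, hT.pl_mul_self hup, one_mul, kron_one]
  have hpM : p₁ ∈ M := hT.kron_mem_M hM (hT.pl_mem hup) (one_mem _)
  obtain ⟨a, b, μ, hμ, hy, ha, -⟩ :=
    hT.factor h (hM.le_isom (mul_mem (mul_mem hg hpM) (inv_mem hg)))
  have hy2 : kron e P a b * kron e P a b = 1 := by
    rw [← hy, conj_mul, hp2, mul_one, mul_inv_cancel]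
  obtain ⟨v, hv⟩ := hT.exists_aniso
  have hv0 : v ≠ 0 := fun h0 => hv (by rw [h0, hT.symm₂.zero_left])
  have hpp : ∀ x, pt e P (ap a (ap a x)) (ap b (ap b v)) = pt e P x v := fun x => by
    rw [← ap_kron, ← ap_kron, ← ap_mul, hy2, ap_one]
  obtain ⟨φ, -, hφ⟩ := exists_functional_eq_one (U := ⊥) (x := ap b (ap b v))
    (by simpa using ap_ne_zero b (ap_ne_zero b hv0))
  have hat : ∀ x, ap a (ap a x) = φ v • x := fun x => by
    have := congrArg (con e P φ) (hpp x)
    rwa [con_pt, con_pt, hφ, one_smul] at this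
  obtain ⟨α, hα, hcom⟩ := hT.exists_quad_comm hμ hat ha
  have hk : g⁻¹ * kron e P α (1 : GL (Fin d) F) * g ∈ H₀ := by
    refine hT.mem_of_comm_pl hM hup (mul_mem (mul_mem (inv_mem hg) (hT.quad_mem hM hα)) hg) ?_
    rw [← hp₁]
    set A := kron e P α (1 : GL (Fin d) F) with hA
    have e1 : g * p₁ * g⁻¹ * A = A * (g * p₁ * g⁻¹) := by
      rw [hy, hA, kron_mul, kron_mul, mul_one, one_mul, hcom]
    calc g⁻¹ * A * g * p₁ = g⁻¹ * (A * (g * p₁ * g⁻¹)) * g := by group
      _ = g⁻¹ * (g * p₁ * g⁻¹ * A) * g := by rw [e1]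
      _ = p₁ * (g⁻¹ * A * g) := by group
  have := hT.mem_of_conj_quad hM hα (inv_mem hg) (by rwa [inv_inv])
  simpa using inv_mem this

end CfsgLib.Geometric.SympOrth.Data
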