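import Cfsg.Agent.Lib.Geometric.Dihedral
import Cfsg.Agent.Lib.Geometric.SympOrth.Quad

/-!
Centralisers of the products of a plane involution of the first factor and reflections of the
second factor: inside them every conjugate of a reflection orthogonal to the given ones is again
such a reflection.
-/

set_option autoImplicit false
set_option linter.unusedSectionVars false

namespace CfsgLib.Geometric.SympOrth.Data

open Matrix Tensor OrthTensor

variable {ι : Type} [Fintype ι] [DecidableEq ι] {F : Type*} [Field F]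
variable {f : (ι → F) → (ι → F) → F} {n d : ℕ} {e : ι ≃ Fin n × Fin d} {P : GL ι F}
  {f₁ : (Fin n → F) → (Fin n → F) → F} {f₂ : (Fin d → F) → (Fin d → F) → F}

omit [Fintype ι] [DecidableEq ι] in
lemma ap_neg {κ : Type} [Fintype κ] [DecidableEq κ] (g : GL κ F) (x : κ → F) :
    ap g (-x) = -ap g x := by
  rw [← neg_one_smul F x, ap_smul, neg_one_smul]

lemma comm_of_conj {G : Type*} [Group G] {g x z : G} (hg : g * z = z * g) (hx : x * z = z * x) :
    g * x * g⁻¹ * z = z * (g * x * g⁻¹) := by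
  have hg' : g⁻¹ * z = z * g⁻¹ := (Commute.inv_left hg).eq
  calc g * x * g⁻¹ * z = g * (x * z) * g⁻¹ := by rw [mul_assoc, hg']; group
    _ = g * z * x * g⁻¹ := by rw [hx]; group
    _ = z * (g * x * g⁻¹) := by rw [hg]; group

section
variable (hT : Data f e P f₁ f₂)
include hT

omit hT in
/-- The product of the plane involution of `u, p` and the reflection at `s`. -/
noncomputable def zz (hT : Data f e P f₁ f₂) {u p : Fin n → F} (hup : f₁ u p = 1)
    (s : Fin d → F) : GL ι F :=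
  kron e P (hT.pl hup) (hT.r s)

omit hT in
/-- Orthogonal to every member of `S`. -/
def Perp (f₂ : (Fin d → F) → (Fin d → F) → F) (S : Set (Fin d → F)) (v : Fin d → F) : Prop :=
  ∀ s ∈ S, f₂ v s = 0

lemma kron_right_inj {b b' : GL (Fin d) F} {a : GL (Fin n) F}
    (h : kron e P a b = kron e P a b') : b = b' := by
  obtain ⟨x, hx⟩ := hT.exists_nonzero
  refine gl_ext fun y => pt_inj_right e P (ap_ne_zero a hx) ?_
  have := congrArg (fun g => ap g (pt e P x y)) h
  simpa only [ap_kron] using this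

lemma r_comm {v s : Fin d → F} (h : f₂ v s = 0) : hT.r v * hT.r s = hT.r s * hT.r v :=
  gl_ext fun x => by
    simp only [ap_mul, hT.ap_r, hT.symm₂.sub_left, hT.symm₂.smul_left, h,
      (hT.symm₂.eq_zero_comm).mp h, mul_zero, sub_zero]
    abel

lemma zz_mul_self {u p : Fin n → F} (hup : f₁ u p = 1) {s : Fin d → F} (hs : f₂ s s ≠ 0) :
    hT.zz hup s * hT.zz hup s = 1 := by
  rw [zz, kron_mul, hT.pl_mul_self hup, hT.r_mul_self hs, kron_one]

lemma R_comm_zz {u p : Fin n → F} (hup : f₁ u p = 1) {v s : Fin d → F} (h : f₂ v s = 0) :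
    hT.R v * hT.zz hup s = hT.zz hup s * hT.R v := by
  rw [R, zz, kron_mul, kron_mul, one_mul, mul_one, hT.r_comm h]

lemma left_comm_zz {u p : Fin n → F} (hup : f₁ u p = 1) {a : GL (Fin n) F}
    (ha : a * hT.pl hup = hT.pl hup * a) (s : Fin d → F) :
    kron e P a (1 : GL (Fin d) F) * hT.zz hup s = hT.zz hup s * kron e P a 1 := by
  rw [zz, kron_mul, kron_mul, one_mul, mul_one, ha]

lemma left_comm_R (a : GL (Fin n) F) (v : Fin d → F) :
    kron e P a (1 : GL (Fin d) F) * hT.R v = hT.R v * kron e P a 1 := by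
  rw [R, kron_mul, kron_mul, one_mul, mul_one, mul_one, one_mul]

lemma eigen_r {v x : Fin d → F} (hx : ap (hT.r v) x = -x) : x ∈ Submodule.span F {v} := by
  refine Submodule.mem_span_singleton.mpr ⟨1 / f₂ v v * f₂ x v, ?_⟩
  rw [hT.ap_r] at hx
  apply smul_right_injective _ hT.two
  show (2 : F) • _ = (2 : F) • x
  rw [smul_smul, show (2 : F) * (1 / f₂ v v * f₂ x v) = 2 / f₂ v v * f₂ x v by ring]
  linear_combination (norm := module) -hx

lemma r_smul (v : Fin d → F) {c : F} (hc : c ≠ 0) : hT.r (c • v) = hT.r v :=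
  gl_ext fun x => by
    rw [hT.ap_r, hT.ap_r, hT.symm₂.smul_left, hT.symm₂.smul_right, hT.symm₂.smul_right, smul_smul]
    congr 2
    field_simp

lemma perp_or_eq {v s : Fin d → F} (hv : f₂ v v ≠ 0) (hs : f₂ s s ≠ 0)
    (h : hT.r v * hT.r s = hT.r s * hT.r v) : f₂ v s = 0 ∨ hT.r v = hT.r s := by
  refine or_iff_not_imp_left.mpr fun hne => ?_
  obtain ⟨c, hc⟩ := Submodule.mem_span_singleton.mp (hT.eigen_r (v := v) (x := ap (hT.r s) v) (by
    rw [← ap_mul, h, ap_mul, hT.ap_r_self hv, ap_neg]))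
  rw [hT.ap_r s v] at hc
  have hk : 2 / f₂ s s * f₂ v s ≠ 0 := mul_ne_zero (div_ne_zero hT.two hs) hne
  have e1 : (2 / f₂ s s * f₂ v s) • s = (1 - c) • v := by
    linear_combination (norm := module) hc
  have e2 : s = ((1 - c) / (2 / f₂ s s * f₂ v s)) • v := by
    apply smul_right_injective _ hk
    show (2 / f₂ s s * f₂ v s) • s = (2 / f₂ s s * f₂ v s) • _
    rw [e1, smul_smul, mul_div_cancel₀ _ hk]
  rw [e2, hT.r_smul]
  intro h0
  rw [h0, zero_smul] at e2
  exact hs (by rw [e2, hT.symm₂.zero_left])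

lemma exists_perp_aniso {w : Fin d → F} (hw : f₂ w w ≠ 0) : ∃ q, f₂ q w = 0 ∧ f₂ q q ≠ 0 := by
  have hg₂ := hT.symm₂
  obtain ⟨x, hx, hx0⟩ := Submodule.exists_mem_ne_zero_of_ne_bot
    (LinearMap.ker_ne_bot_of_finrank_lt (f := hg₂.fl w) (by have := hT.four₂; simp; omega))
  obtain ⟨y, hy⟩ := hg₂.exists_ne hx0
  have hxw : f₂ x w = 0 := by simpa using hx
  set y' := y - (f₂ y w / f₂ w w) • w with hy'
  have hy'K : y' ∈ LinearMap.ker (hg₂.fl w) := by
    rw [LinearMap.mem_ker, SymForm.fl_apply, hy', hg₂.sub_left, hg₂.smul_left,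
      div_mul_cancel₀ _ hw, sub_self]
  have hxy : f₂ x y' ≠ 0 := by
    rw [hy', hg₂.sub_right, hg₂.smul_right, hxw, mul_zero, sub_zero]
    exact hy
  obtain ⟨z, hz, hzz⟩ := hg₂.exists_aniso_in hx hy'K hxy
  exact ⟨z, by simpa using hz, hzz⟩

lemma exists_perp_aniso₂ {w t : Fin d → F} (hw : f₂ w w ≠ 0) (ht : f₂ t t ≠ 0)
    (hwt : f₂ w t = 0) : ∃ q, f₂ q w = 0 ∧ f₂ q t = 0 ∧ f₂ q q ≠ 0 := by
  have hg₂ := hT.symm₂
  obtain ⟨x, hx, hx0⟩ := Submodule.exists_mem_ne_zero_of_ne_bot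
    (LinearMap.ker_ne_bot_of_finrank_lt (f := (hg₂.fl w).prod (hg₂.fl t))
      (by have := hT.four₂; simp; omega))
  obtain ⟨hx1, hx2⟩ : f₂ x w = 0 ∧ f₂ x t = 0 := by simpa using hx
  obtain ⟨y, hy⟩ := hg₂.exists_ne hx0
  set y' := y - (f₂ y w / f₂ w w) • w - (f₂ y t / f₂ t t) • t with hy'def
  have hy' : y' ∈ LinearMap.ker ((hg₂.fl w).prod (hg₂.fl t)) := by
    have e1 : f₂ y' w = 0 := by
      rw [hy'def, hg₂.sub_left, hg₂.sub_left, hg₂.smul_left, hg₂.smul_left,
        div_mul_cancel₀ _ hw, hg₂.symm t w, hwt]; ring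
    have e2 : f₂ y' t = 0 := by
      rw [hy'def, hg₂.sub_left, hg₂.sub_left, hg₂.smul_left, hg₂.smul_left,
        div_mul_cancel₀ _ ht, hwt]; ring
    simp [e1, e2]
  have hxy : f₂ x y' ≠ 0 := by
    rw [hy'def, hg₂.sub_right, hg₂.sub_right, hg₂.smul_right, hg₂.smul_right, hx1, hx2]
    simpa using hy
  obtain ⟨z, hz, hzz⟩ := hg₂.exists_aniso_in hx hy' hxy
  obtain ⟨hz1, hz2⟩ : f₂ z w = 0 ∧ f₂ z t = 0 := by simpa using hz
  exact ⟨z, hz1, hz2, hzz⟩

/-- A property closed under differences holding at the vectors of non-zero value orthogonal to `S`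
holds on the orthogonal. -/
lemma perp_induction {S : Set (Fin d → F)} {Q : (Fin d → F) → Prop}
    (hq : ∃ q, Perp f₂ S q ∧ f₂ q q ≠ 0) (hsub : ∀ x y, Q x → Q y → Q (x - y))
    (hbase : ∀ v, Perp f₂ S v → f₂ v v ≠ 0 → Q v) {y : Fin d → F} (hy : Perp f₂ S y) : Q y := by
  have hg₂ := hT.symm₂
  by_cases h0 : f₂ y y ≠ 0
  · exact hbase y hy h0
  push Not at h0
  obtain ⟨q, hqS, hqq⟩ := hq
  obtain ⟨s, hs, hs0⟩ : ∃ s : F, s * s = 1 ∧ f₂ (y + s • q) (y + s • q) ≠ 0 := by
    by_contra hall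
    push Not at hall
    have e1 := hall 1 (one_mul 1)
    have e2 := hall (-1) (by ring)
    simp only [hg₂.add_left, hg₂.add_right, hg₂.smul_left, hg₂.smul_right, h0,
      hg₂.symm q y] at e1 e2
    exact hqq ((mul_eq_zero.mp (show (2 : F) * f₂ q q = 0 by
      linear_combination e1 + e2)).resolve_left hT.two)
  have hS : ∀ c : F, Perp f₂ S (c • q) := fun c t ht => by
    rw [hg₂.smul_left, hqS t ht, mul_zero]
  have := hsub _ _ (hbase (y + s • q)
    (fun t ht => by rw [hg₂.add_left, hy t ht, hS s t ht, add_zero]) hs0)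
    (hbase (s • q) (hS s) (by
      rw [hg₂.smul_left, hg₂.smul_right, ← mul_assoc, hs, one_mul]; exact hqq))
  rwa [add_sub_cancel_right] at this

/-- An element commuting with three orthogonal products commutes with the plane involution. -/
lemma comm_pl_of_three {u p : Fin n → F} (hup : f₁ u p = 1) {w t t' : Fin d → F}
    (hw : f₂ w w ≠ 0) (h₁ : f₂ w t = 0) (h₂ : f₂ w t' = 0) (h₃ : f₂ t t' = 0) {k : GL ι F}
    (kw : k * hT.zz hup w = hT.zz hup w * k) (kt : k * hT.zz hup t = hT.zz hup t * k)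
    (kt' : k * hT.zz hup t' = hT.zz hup t' * k) :
    k * kron e P (hT.pl hup) (1 : GL (Fin d) F) =
      kron e P (hT.pl hup) (1 : GL (Fin d) F) * k := by
  set P₁ := hT.zz hup w * hT.zz hup t with hP₁
  set P₂ := hT.zz hup w * hT.zz hup t' with hP₂
  have k1 : Commute k P₁ := Commute.mul_right kw kt
  have k2 : Commute k P₂ := Commute.mul_right kw kt'
  have k3 : Commute k (P₂ * P₁) := Commute.mul_right k2 k1
  have h21 := hT.symm₂.eq_zero_comm.mp h₁
  have h22 := hT.symm₂.eq_zero_comm.mp h₂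
  have h23 := hT.symm₂.eq_zero_comm.mp h₃
  have key : ∀ x, (2 : F) • ap (hT.R w) x =
      x + ap P₁ x + ap P₂ x - ap (P₂ * P₁) x := fun x => by
    have h := LinearMap.congr_fun (ext_pt e P (f := (2 : F) • (apEquiv (hT.R w)).toLinearMap)
      (g := LinearMap.id + (apEquiv P₁).toLinearMap + (apEquiv P₂).toLinearMap -
        (apEquiv (P₂ * P₁)).toLinearMap) fun a y => by
      simp only [LinearMap.smul_apply, LinearMap.add_apply, LinearMap.sub_apply,
        LinearMap.id_apply, LinearEquiv.coe_coe, apEquiv_apply, hP₁, hP₂, zz, R, kron_mul,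
        hT.pl_mul_self hup, one_mul, ap_kron, ap_one, ap_mul, ← pt_add_right, ← pt_sub_right,
        ← pt_smul_right]
      congr 1
      simp only [hT.ap_r, hT.symm₂.sub_left, hT.symm₂.smul_left, h₁, h₂, h₃, h21, h22, h23,
        mul_zero, sub_zero, div_mul_cancel₀ _ hw]
      match_scalars <;> field_simp <;> ring) x
    simpa using h
  clear_value P₁ P₂
  have kR : k * hT.R w = hT.R w * k := gl_ext fun x => by
    rw [ap_mul, ap_mul]
    apply smul_right_injective (ι → F) hT.two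
    show (2 : F) • _ = (2 : F) • _
    rw [← ap_smul, key, key, ap_sub, ap_add, ap_add, ← ap_mul k, ← ap_mul k, ← ap_mul k,
      k1.eq, k2.eq, k3.eq, ap_mul P₁, ap_mul P₂, ap_mul (P₂ * P₁)]
  have hp : kron e P (hT.pl hup) (1 : GL (Fin d) F) = hT.zz hup w * hT.R w := by
    rw [zz, R, kron_mul, mul_one, hT.r_mul_self hw]
  rw [hp]
  exact (Commute.mul_right kw kR).eq

end

variable [Finite F] (hT : Data f e P f₁ f₂) {M : Subgroup (GL ι F)} (hM : hT.Small M)
include hT hM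

local notation "H₀" => Cfsg.Geo.tensorProductSubgroup n d e P

/-- A conjugate of a reflection inside the stabiliser is a reflection. -/
lemma conj_R_form {g : GL ι F} (hg : g ∈ M) {v : Fin d → F} (hv : f₂ v v ≠ 0)
    (h : g * hT.R v * g⁻¹ ∈ H₀) : ∃ v', f₂ v' v' ≠ 0 ∧ g * hT.R v * g⁻¹ = hT.R v' := by
  have hn := hT.four₁
  set y := g * hT.R v * g⁻¹ with hy
  have hyM : y ∈ M := mul_mem (mul_mem hg (hM.le (hT.R_mem v))) (inv_mem hg)
  have hy2 : y * y = 1 := by rw [hy, conj_mul, hT.R_mul_self hv, mul_one, mul_inv_cancel]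
  have hdim : Module.finrank F (negSpace y) = n := by
    rw [hy, finrank_negSpace_conj, hT.finrank_negSpace_R hv]
  obtain ⟨b, hb⟩ : ∃ b : GL (Fin d) F, y = kron e P (1 : GL (Fin n) F) b := by
    rcases hT.split_of_rank h (hM.le_isom hyM) hy2 hdim with ⟨a, -, haa, hya⟩ | ⟨b, -, -, hyb⟩
    · have hgH := hT.mem_of_R_to_left hM hv hg haa hya
      obtain ⟨a', b', μ, -, hac, -, -⟩ := hT.factor hgH (hM.le_isom hg)
      exact ⟨b' * hT.r v * b'⁻¹, by
        rw [hy, hac, R, kron_inv, kron_mul, kron_mul, mul_one, mul_inv_cancel]⟩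
    · exact ⟨b, hyb⟩
  obtain ⟨a₀, ha₀⟩ := hT.exists_nonzero
  obtain ⟨a₁, ha₁⟩ := (hT.symp₁.nondegenerate a₀ ha₀).2
  have hbI : ∀ z z', f₂ (ap b z) (ap b z') = f₂ z z' := fun z z' => by
    have h1 := mem_isom_iff.mp (hM.le_isom hyM) (pt e P a₀ z) (pt e P a₁ z')
    rw [hb, ap_kron, ap_kron, ap_one, ap_one, hT.form, hT.form] at h1
    exact mul_left_cancel₀ ha₁ h1
  have hbb : ∀ z, ap b (ap b z) = z := fun z => pt_inj_right e P ha₀ (by
    have h1 := congrArg (fun k => ap k (pt e P a₀ z)) hy2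
    simpa only [hb, ap_mul, ap_kron, ap_one] using h1)
  obtain ⟨z₀, hz₀⟩ : ∃ z, z - ap b z ≠ 0 := by
    by_contra hall
    push Not at hall
    have hb1 : b = 1 := gl_ext fun z => by rw [ap_one]; exact (sub_eq_zero.mp (hall z)).symm
    rw [hb1, kron_one, hy, conj_eq_one_iff] at hb
    exact hT.R_ne_one hv hb
  set m := z₀ - ap b z₀ with hm
  have hbm : ap b m = -m := by rw [hm, ap_sub, hbb, neg_sub]
  have hrange : LinearMap.range (ptl e P m) = negSpace y := by
    refine Submodule.eq_of_le_of_finrank_eq ?_ ?_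
    · rintro _ ⟨a, rfl⟩
      rw [mem_negSpace, hb, ptl_apply, ap_kron, ap_one, hbm, pt_neg_right]
    · rw [hdim, LinearMap.finrank_range_of_inj ((injective_iff_map_eq_zero _).mpr fun z hz => by
        by_contra h0
        exact pt_ne_zero e P h0 hz₀ hz), Module.finrank_fin_fun]
  obtain ⟨φ, -, hφ⟩ := exists_functional_eq_one (U := ⊥) (x := a₀) (by simpa using ha₀)
  have hline : ∀ z, ∃ c : F, z - ap b z = c • m := fun z => by
    have hmem : pt e P a₀ (z - ap b z) ∈ negSpace y := by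
      rw [mem_negSpace, hb, ap_kron, ap_one, ap_sub, hbb, ← pt_neg_right, neg_sub]
    rw [← hrange] at hmem
    obtain ⟨a, ha⟩ := hmem
    have := congrArg (conr e P φ) ha
    rw [ptl_apply, conr_pt, conr_pt, hφ, one_smul] at this
    exact ⟨φ a, this.symm⟩
  have hpair : ∀ z c, z - ap b z = c • m → 2 * f₂ z m = c * f₂ m m := fun z c hc => by
    have h1 := hbI z m
    rw [hbm, hT.symm₂.neg_right, show ap b z = z - c • m by rw [← hc, sub_sub_cancel],
      hT.symm₂.sub_left, hT.symm₂.smul_left] at h1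
    linear_combination -h1
  have hmm : f₂ m m ≠ 0 := fun h0 => hz₀ (hT.symm₂.eq_of_forall fun z => by
    obtain ⟨c, hc⟩ := hline z
    have := hpair z c hc
    rw [h0, mul_zero] at this
    rw [hT.symm₂.zero_left, hT.symm₂.symm]
    exact (mul_eq_zero.mp this).resolve_left hT.two)
  refine ⟨m, hmm, ?_⟩
  rw [hb, R, show b = hT.r m from gl_ext fun z => ?_]
  obtain ⟨c, hc⟩ := hline z
  rw [hT.ap_r, show 2 / f₂ m m * f₂ z m = c by
    have := hpair z c hc
    field_simp
    linear_combination this]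
  rw [← hc, sub_sub_cancel]

/-- A reflection is not carried to an orthogonal one in the centraliser of the mixed product. -/
lemma no_swap {u p : Fin n → F} (hup : f₁ u p = 1) {g : GL ι F} (hg : g ∈ M) {v s : Fin d → F}
    (hv : f₂ v v ≠ 0) (hs : f₂ s s ≠ 0) (hvs : f₂ v s = 0)
    (hc : g * hT.zz hup s = hT.zz hup s * g) (h : g * hT.R v * g⁻¹ = hT.R s) : False := by
  have hg₂ := hT.symm₂
  set p₁ := kron e P (hT.pl hup) (1 : GL (Fin d) F) with hp₁
  have h1 : hT.zz hup s * hT.R s = p₁ := by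
    rw [zz, R, kron_mul, mul_one, hT.r_mul_self hs]
  have h2 : g⁻¹ * p₁ * g = hT.zz hup s * hT.R v := by
    calc g⁻¹ * p₁ * g = g⁻¹ * (hT.zz hup s * (g * hT.R v * g⁻¹)) * g := by rw [h, h1]
      _ = g⁻¹ * (hT.zz hup s * g) * hT.R v := by group
      _ = hT.zz hup s * hT.R v := by rw [← hc]; group
  have hgH := hT.mem_of_conj_pl hM hup (inv_mem hg) (by
    rw [inv_inv, ← hp₁, h2, zz, R, kron_mul]
    exact kron_mem e P _ _)
  obtain ⟨a, b, μ, -, hac, -, -⟩ := hT.factor hgH (hM.le_isom (inv_mem hg))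
  rw [← inv_inv g, inv_inv g⁻¹, hac, hp₁, kron_inv, kron_mul, kron_mul, mul_one, mul_inv_cancel,
    zz, R, kron_mul, mul_one] at h2
  obtain ⟨q, hq, hq0⟩ := Submodule.exists_mem_ne_zero_of_ne_bot
    (LinearMap.ker_ne_bot_of_finrank_lt (f := (hg₂.fl v).prod (hg₂.fl s))
      (by have := hT.four₂; simp; omega))
  obtain ⟨hqv, hqs⟩ : f₂ q v = 0 ∧ f₂ q s = 0 := by simpa using hq
  have hu0 : u ≠ 0 := fun h0 => one_ne_zero (α := F) (by rw [← hup, h0, Symp.zero_left hT.symp₁])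
  have hv0 : v ≠ 0 := fun h0 => hv (by rw [h0, hg₂.zero_left])
  have e1 := congrArg (fun k => ap k (pt e P u v)) h2
  have e2 := congrArg (fun k => ap k (pt e P u q)) h2
  simp only [ap_kron, ap_one, hT.ap_pl_left, ap_mul, hT.ap_r_self hv, ap_neg,
    hT.ap_r_perp hvs, hT.ap_r_perp hqv, hT.ap_r_perp hqs, pt_neg_right] at e1 e2
  rw [pt_inj_left e P hq0 e2, ← neg_one_smul F u, pt_smul_left] at e1
  exact pt_ne_zero e P hu0 hv0 ((smul_eq_zero.mp (show (2 : F) • pt e P u v = 0 by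
    linear_combination (norm := module) -e1)).resolve_left hT.two)

/-- The centraliser in `M` of the mixed products at `S`. -/
def block (hT : Data f e P f₁ f₂) (_hM : hT.Small M) {u p : Fin n → F} (hup : f₁ u p = 1)
    (S : Set (Fin d → F)) : Subgroup (GL ι F) :=
  M ⊓ Subgroup.centralizer (hT.zz hup '' S)

lemma mem_block {u p : Fin n → F} {hup : f₁ u p = 1} {S : Set (Fin d → F)} {k : GL ι F} :
    k ∈ hT.block hM hup S ↔ k ∈ M ∧ ∀ s ∈ S, k * hT.zz hup s = hT.zz hup s * k := by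
  rw [block, Subgroup.mem_inf, Subgroup.mem_centralizer_iff]
  exact and_congr_right fun _ =>
    ⟨fun h s hs => (h _ (Set.mem_image_of_mem _ hs)).symm, by
      rintro h _ ⟨s, hs, rfl⟩
      exact (h s hs).symm⟩

variable {u p : Fin n → F} (hup : f₁ u p = 1) {S : Set (Fin d → F)}
  (hS : ∀ s ∈ S, f₂ s s ≠ 0)
include hS

/-- Conjugates inside the block of an orthogonal reflection lying in the stabiliser are orthogonal
reflections. -/
lemma form_in {g : GL ι F} (hg : g ∈ hT.block hM hup S) {v : Fin d → F} (hv : f₂ v v ≠ 0)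
    (hvS : Perp f₂ S v) (h : g * hT.R v * g⁻¹ ∈ H₀) :
    ∃ v', f₂ v' v' ≠ 0 ∧ Perp f₂ S v' ∧ g * hT.R v * g⁻¹ = hT.R v' := by
  obtain ⟨hgM, hgc⟩ := (hT.mem_block hM).mp hg
  obtain ⟨v', hv', heq⟩ := hT.conj_R_form hM hgM hv h
  refine ⟨v', hv', fun s hs => ?_, heq⟩
  have h1 : hT.R v' * hT.zz hup s = hT.zz hup s * hT.R v' := by
    rw [← heq]; exact comm_of_conj (hgc s hs) (hT.R_comm_zz hup (hvS s hs))
  rw [R, zz, kron_mul, kron_mul, one_mul, mul_one] at h1
  refine (hT.perp_or_eq hv' (hS s hs) (hT.kron_right_inj h1)).resolve_right fun h2 => ?_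
  exact hT.no_swap hM hup hgM hv (hS s hs) (hvS s hs) (hgc s hs) (by rw [heq, R, R, h2])

/-- The dihedral argument in a block. -/
theorem conj_R_in
    (hyp : ∀ v', f₂ v' v' ≠ 0 → Perp f₂ S v' → ∀ k ∈ hT.block hM hup S,
      k * hT.zz hup v' = hT.zz hup v' * k → k ∈ H₀)
    {g : GL ι F} (hg : g ∈ hT.block hM hup S) {v : Fin d → F} (hv : f₂ v v ≠ 0)
    (hvS : Perp f₂ S v) :
    ∃ v', f₂ v' v' ≠ 0 ∧ Perp f₂ S v' ∧ g * hT.R v * g⁻¹ = hT.R v' := by
  classical
  refine hT.form_in hM hup hS hg hv hvS ?_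
  set G := hT.block hM hup S with hGdef
  set A := kron e P (hT.pl hup) (1 : GL (Fin d) F) with hA
  have hA2 : A * A = 1 := by rw [hA, kron_mul, hT.pl_mul_self hup, one_mul, kron_one]
  let pG : G := ⟨A, (hT.mem_block hM).mpr
    ⟨hT.kron_mem_M hM (hT.pl_mem hup) (one_mem _), fun s _ => hT.left_comm_zz hup rfl s⟩⟩
  let xG : G := ⟨hT.R v, (hT.mem_block hM).mpr
    ⟨hM.le (hT.R_mem v), fun s hs => hT.R_comm_zz hup (hvS s hs)⟩⟩
  have key := conj_mem_of_involutions (H := (H₀).subgroupOf G) (p := pG) (x := xG)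
    (Subgroup.mem_subgroupOf.mpr (kron_mem e P _ _)) (Subgroup.mem_subgroupOf.mpr (hT.R_mem v).1)
    (Subtype.ext hA2) (Subtype.ext (hT.R_mul_self hv))
    (fun g hg => Subgroup.mem_subgroupOf.mpr (hT.mem_of_conj_pl hM hup ((hT.mem_block hM).mp g.2).1
      (Subgroup.mem_subgroupOf.mp hg))) ?_ ?_ ⟨g, hg⟩
  · exact Subgroup.mem_subgroupOf.mp key
  · intro h hh heq
    obtain ⟨a, c, μ, -, hac, -, -⟩ :=
      hT.factor (Subgroup.mem_subgroupOf.mp hh) (hM.le_isom ((hT.mem_block hM).mp h.2).1)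
    have heq' : (h : GL ι F) * A * (h : GL ι F)⁻¹ = hT.R v := congrArg Subtype.val heq
    rw [hac, hA, kron_inv, kron_mul, kron_mul, mul_one, mul_inv_cancel] at heq'
    obtain ⟨w, hw, hwu, hwp⟩ := hT.exists_perp_plane u p
    have hv0 : v ≠ 0 := fun h0 => hv (by rw [h0, hT.symm₂.zero_left])
    have e1 := congrArg (fun g => ap g (pt e P (ap a w) v)) heq'
    simp only [R, ap_kron, ap_one, ap_mul, ap_inv_ap, hT.ap_pl_fix hup hwu hwp,
      hT.ap_r_self hv, pt_neg_right] at e1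
    exact pt_ne_zero e P (ap_ne_zero a hw) hv0 ((smul_eq_zero.mp
      (show (2 : F) • pt e P (ap a w) v = 0 by
        linear_combination (norm := module) e1)).resolve_left hT.two)
  · intro g' hg' z hz hz1 hz2 k hk
    obtain ⟨v', hv', hv'S, heq⟩ := hT.form_in hM hup hS g'.2 hv hvS (Subgroup.mem_subgroupOf.mp hg')
    have hs : ((pG * (g' * xG * g'⁻¹) : G) : GL ι F) = hT.zz hup v' := by
      show A * ((g' : GL ι F) * hT.R v * (g' : GL ι F)⁻¹) = _
      rw [heq, hA, R, zz, kron_mul, mul_one, one_mul]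
    obtain ⟨i, rfl⟩ := Subgroup.mem_zpowers_iff.mp hz
    have hzi : (((pG * (g' * xG * g'⁻¹)) ^ i : G) : GL ι F) = hT.zz hup v' := by
      rw [SubgroupClass.coe_zpow, hs]
      rcases Int.even_or_odd i with ⟨j, rfl⟩ | ⟨j, rfl⟩
      · refine absurd ?_ hz1
        refine Subtype.ext ?_
        rw [SubgroupClass.coe_zpow, hs, _root_.zpow_add, ← (Commute.refl _).mul_zpow,
          hT.zz_mul_self hup hv', _root_.one_zpow]
        rfl
      · rw [_root_.zpow_add_one, two_mul, _root_.zpow_add, ← (Commute.refl (hT.zz hup v')).mul_zpow,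
          hT.zz_mul_self hup hv', _root_.one_zpow, one_mul]
    refine Subgroup.mem_subgroupOf.mpr (hyp v' hv' hv'S k k.2 ?_)
    rw [← hzi]
    exact congrArg Subtype.val (mul_inv_eq_iff_eq_mul.mp hk)

/-- If the elements of a block commuting with all orthogonal reflections lie in the stabiliser then
so does the whole block. -/
theorem block_le
    (hyp : ∀ v', f₂ v' v' ≠ 0 → Perp f₂ S v' → ∀ k ∈ hT.block hM hup S,
      k * hT.zz hup v' = hT.zz hup v' * k → k ∈ H₀)
    (hC : ∀ k ∈ hT.block hM hup S,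
      (∀ v, f₂ v v ≠ 0 → Perp f₂ S v → k * hT.R v = hT.R v * k) → k ∈ H₀) :
    hT.block hM hup S ≤ H₀ := by
  intro k hk
  have hu0 : u ≠ 0 := fun h0 => one_ne_zero (α := F) (by rw [← hup, h0, Symp.zero_left hT.symp₁])
  have hTpl : Symp.T hT.symp₁ u 1 * hT.pl hup = hT.pl hup * Symp.T hT.symp₁ u 1 := by
    have h1 := Symp.conj_T hT.symp₁ (hT.pl_mem hup) u 1
    rw [hT.ap_pl_left hup, ← neg_one_smul F u, Symp.T_smul, show (-1 : F) * -1 * 1 = 1 by ring]
      at h1
    exact (mul_inv_eq_iff_eq_mul.mp h1).symm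
  set T := kron e P (Symp.T hT.symp₁ u 1) (1 : GL (Fin d) F) with hTdef
  have hTG : T ∈ hT.block hM hup S :=
    (hT.mem_block hM).mpr ⟨hT.T₁_mem hM u, fun s _ => hT.left_comm_zz hup hTpl s⟩
  have hkT : k * T * k⁻¹ ∈ H₀ := hC _ (mul_mem (mul_mem hk hTG) (inv_mem hk)) fun v hv hvS => by
    obtain ⟨v₀, -, -, hv₀⟩ := hT.conj_R_in hM hup hS hyp (inv_mem hk) hv hvS
    rw [inv_inv] at hv₀
    calc k * T * k⁻¹ * hT.R v = k * (T * (k⁻¹ * hT.R v * k)) * k⁻¹ := by group
      _ = k * (k⁻¹ * hT.R v * k * T) * k⁻¹ := by rw [hv₀, hTdef, hT.left_comm_R]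
      _ = hT.R v * (k * T * k⁻¹) := by group
  exact hT.mem_of_conj_T hM hu0 ((hT.mem_block hM).mp hk).1 hkT

end CfsgLib.Geometric.SympOrth.Data
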