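import Cfsg.Agent.Lib.Geometric.SympOrth.Basic
import Cfsg.Agent.Lib.Geometric.Orth.Values
import Cfsg.Agent.Lib.Geometric.Orth.TensorThree

/-!
Overgroups of the stabiliser without transvections at pure tensors with a singular second factor:
the elements acting as `x ↦ x + a ⊗ S(x)` on one slice have scalar `S`.
-/

set_option autoImplicit false
set_option linter.unusedSectionVars false

namespace CfsgLib.Geometric.SympOrth.Data

open Matrix Tensor OrthTensor

variable {ι : Type} [Fintype ι] [DecidableEq ι] {F : Type*} [Field F]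
variable {f : (ι → F) → (ι → F) → F} {n d : ℕ} {e : ι ≃ Fin n × Fin d} {P : GL ι F}
  {f₁ : (Fin n → F) → (Fin n → F) → F} {f₂ : (Fin d → F) → (Fin d → F) → F}
variable [Finite F] (hT : Data f e P f₁ f₂)

/-- An overgroup of the stabiliser without transvections at pure tensors with singular second
factor. -/
structure Small (hT : Data f e P f₁ f₂) (M : Subgroup (GL ι F)) : Prop where
  le_isom : M ≤ isom f
  le : Cfsg.Geo.tensorProductSubgroup n d e P ⊓ isom f ≤ M
  noT : ¬ ∃ (u : Fin n → F) (w : Fin d → F) (κ : F),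
    u ≠ 0 ∧ w ≠ 0 ∧ κ ≠ 0 ∧ f₂ w w = 0 ∧ Symp.T hT.symp (pt e P u w) κ ∈ M

/-- A central element at `a` with the given map. -/
def Cen (hT : Data f e P f₁ f₂) (M : Subgroup (GL ι F)) (a : Fin n → F)
    (S : (Fin d → F) →ₗ[F] (Fin d → F)) : Prop :=
  ∃ m ∈ M, ∀ x, ap m x = x + pt e P a (S (hT.dd a x))

/-- A radical element at `a` with the given linear part. -/
def Rad (hT : Data f e P f₁ f₂) (M : Subgroup (GL ι F)) (a : Fin n → F)
    (Λ : (Fin d → F) →ₗ[F] (ι → F)) : Prop :=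
  ∃ m ∈ M, ∀ x, ap m x - x - Λ (hT.dd a x) ∈ LinearMap.range (ptr e P a)

include hT

variable {M : Subgroup (GL ι F)} (hM : hT.Small M) {a : Fin n → F} (ha : a ≠ 0)
include hM

lemma kron_mem_M {g : GL (Fin n) F} {b : GL (Fin d) F} (hg : g ∈ isom f₁) (hb : b ∈ isom f₂) :
    kron e P g b ∈ M :=
  hM.le (hT.kron_mem_H hg hb)

omit hM in
lemma cen_add {S S' : (Fin d → F) →ₗ[F] (Fin d → F)} (h : hT.Cen M a S) (h' : hT.Cen M a S') :
    hT.Cen M a (S + S') := by
  obtain ⟨m, hm, hmx⟩ := h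
  obtain ⟨m', hm', hmx'⟩ := h'
  refine ⟨m * m', mul_mem hm hm', fun x => ?_⟩
  have h0 : hT.dd a (pt e P a (S' (hT.dd a x))) = 0 := by
    rw [dd_pt, hT.symp₁.alternating, zero_smul]
  rw [ap_mul, hmx', hmx, map_add, h0, add_zero, LinearMap.add_apply, pt_add_right]
  abel

include hM ha

lemma cen_id : hT.Cen M a LinearMap.id :=
  ⟨_, hT.kron_mem_M hM (Symp.T_mem_isom hT.symp₁ a 1) (one_mem _), fun x => by
    rw [hT.ap_kron_T, one_smul, LinearMap.id_apply]⟩

lemma cen_smul {S : (Fin d → F) →ₗ[F] (Fin d → F)} (h : hT.Cen M a S) (c : F) :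
    hT.Cen M a (c • S) := by
  have hzero : hT.Cen M a 0 := ⟨1, one_mem M, fun x => by simp [pt_zero_right]⟩
  have sq : ∀ l : F, hT.Cen M a ((l * l) • S) := by
    intro l
    by_cases hl : l = 0
    · simpa [hl] using hzero
    obtain ⟨g, hg, hga⟩ := Symp.exists_isom_map hT.symp₁ ha (smul_ne_zero hl ha)
    set K := kron e P g (1 : GL (Fin d) F)
    have hK : K ∈ M := hT.kron_mem_M hM hg (one_mem _)
    obtain ⟨m, hm, hmx⟩ := h
    refine ⟨K * m * K⁻¹, mul_mem (mul_mem hK hm) (inv_mem hK), fun x => ?_⟩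
    have hc : hT.dd a (ap K⁻¹ x) = l • hT.dd a x := hT.symm₂.eq_of_forall fun y => by
      rw [← hT.f_pt', ← mem_isom_iff.mp (hM.le_isom hK), ap_ap_inv, ap_kron, hga, ap_one,
        hT.symm₂.smul_left, ← hT.f_pt', pt_smul_left, hT.symp.bilinear.smul_right]
    rw [ap_mul, ap_mul, hmx, ap_add, ap_ap_inv, ap_kron, hga, ap_one, hc, map_smul,
      LinearMap.smul_apply, pt_smul_left, pt_smul_right, pt_smul_right, smul_smul]
  obtain ⟨α, β, hαβ⟩ := Orth.exists_combination (F := F) one_ne_zero one_ne_zero hT.two c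
  have := hT.cen_add (sq α) (sq β)
  rwa [← add_smul, show α * α + β * β = c by linear_combination hαβ] at this

lemma cen_conj {S : (Fin d → F) →ₗ[F] (Fin d → F)} (h : hT.Cen M a S) {b : GL (Fin d) F}
    (hb : b ∈ isom f₂) :
    hT.Cen M a ((apEquiv b).toLinearMap ∘ₗ S ∘ₗ (apEquiv b⁻¹).toLinearMap) := by
  set K := kron e P (1 : GL (Fin n) F) b
  have hK : K ∈ M := hT.kron_mem_M hM (one_mem _) hb
  obtain ⟨m, hm, hmx⟩ := h
  refine ⟨K * m * K⁻¹, mul_mem (mul_mem hK hm) (inv_mem hK), fun x => ?_⟩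
  have hc : hT.dd a (ap K⁻¹ x) = ap b⁻¹ (hT.dd a x) := hT.symm₂.eq_of_forall fun y => by
    rw [← hT.f_pt', ← mem_isom_iff.mp (hM.le_isom hK), ap_ap_inv, ap_kron, ap_one, hT.f_pt',
      ← mem_isom_iff.mp hb (ap b⁻¹ _), ap_ap_inv]
  rw [ap_mul, ap_mul, hmx, ap_add, ap_ap_inv, ap_kron, ap_one, hc]
  rfl

lemma cen_selfadjoint {S : (Fin d → F) →ₗ[F] (Fin d → F)} (h : hT.Cen M a S) (y y' : Fin d → F) :
    f₂ (S y) y' = f₂ y (S y') := by
  obtain ⟨p, hp⟩ := (hT.symp₁.nondegenerate a ha).1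
  obtain ⟨m, hm, hmx⟩ := h
  have h1 := mem_isom_iff.mp (hM.le_isom hm) (pt e P p y) (pt e P p y')
  rw [hmx, hmx, dd_pt, dd_pt, map_smul, map_smul, pt_smul_right, pt_smul_right] at h1
  simp only [hT.symp.bilinear.add_left, hT.symp.bilinear.add_right, hT.symp.bilinear.smul_left,
    hT.symp.bilinear.smul_right, hT.form, hT.symp₁.alternating, hT.symp₁.skew a p] at h1
  refine mul_left_cancel₀ (mul_ne_zero hp hp) ?_
  linear_combination -h1

/-- A central element kills the values at singular vectors. -/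
lemma cen_quad {S : (Fin d → F) →ₗ[F] (Fin d → F)} (h : hT.Cen M a S) {s : Fin d → F}
    (hs : f₂ s s = 0) (hs0 : s ≠ 0) : f₂ (S s) s = 0 := by
  by_contra hne
  have hg := hT.symm₂
  have h2 := hT.two
  obtain ⟨s', hs', h1⟩ := hg.exists_hyp hs hs0
  obtain ⟨w, hws, hws', hww⟩ := hg.exists_aniso_pr hT.three_le hs hs' h1
  obtain ⟨w', hw's, -, hw'w, hw'w'⟩ :=
    hg.exists_aniso_pr_two (by have := hT.four₂; simp; omega) hs hs' h1 hws hws' hww
  have hsw : f₂ s w = 0 := by rw [hg.symm]; exact hws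
  have hsw' : f₂ s w' = 0 := by rw [hg.symm]; exact hw's
  have hww' : f₂ w w' = 0 := by rw [hg.symm]; exact hw'w
  have hC : ∀ v, ∀ hv : f₂ s v = 0, hT.Cen M a ((apEquiv (hg.rho s v hs hv)).toLinearMap ∘ₗ S ∘ₗ
      (apEquiv (hg.rho s (-v) hs (by rw [hg.neg_right, hv, neg_zero]))).toLinearMap) := by
    intro v hv
    have := hT.cen_conj hM ha h (hg.rho_mem_isom hs hv)
    rwa [hg.rho_inv hs hv] at this
  have k1 := hT.cen_add (hT.cen_add (hT.cen_add
    (hC (w + w') (by rw [hg.add_right, hsw, hsw', add_zero]))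
    (hC (-(w + w')) (by rw [hg.neg_right, hg.add_right, hsw, hsw', add_zero, neg_zero])))
    (hC (w - w') (by rw [hg.sub_right, hsw, hsw', sub_zero])))
    (hC (-(w - w')) (by rw [hg.neg_right, hg.sub_right, hsw, hsw', sub_zero, neg_zero]))
  have k2 := hT.cen_add (hT.cen_add (hT.cen_add (hC w hsw)
    (hC (-w) (by rw [hg.neg_right, hsw, neg_zero]))) (hC w' hsw'))
    (hC (-w') (by rw [hg.neg_right, hsw', neg_zero]))
  have hY := hT.cen_smul hM ha (hT.cen_add (hT.cen_add k1 (hT.cen_smul hM ha k2 (-2)))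
    (hT.cen_smul hM ha h 4)) ((2 * f₂ w w * f₂ w' w' * f₂ (S s) s)⁻¹)
  obtain ⟨m, hm, hmx⟩ := hY
  refine hM.noT ⟨a, s, 1, ha, hs0, one_ne_zero, hs, ?_⟩
  convert hm using 1
  refine gl_ext fun x => ?_
  rw [hmx, Symp.ap_T, hT.f_pt', one_mul, ← pt_smul_right]
  congr 2
  simp only [LinearMap.smul_apply, LinearMap.add_apply, LinearMap.comp_apply, LinearEquiv.coe_coe,
    apEquiv_apply, hg.ap_rho, map_add, map_sub, map_smul, map_neg, neg_neg, hg.add_left,
    hg.sub_left, hg.neg_left, hg.add_right, hg.sub_right,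
    hg.neg_right, hww', hw'w]
  match_scalars <;> field_simp <;> ring

/-- A central element is scalar. -/
theorem cen_scalar {S : (Fin d → F) →ₗ[F] (Fin d → F)} (h : hT.Cen M a S) :
    ∃ c : F, ∀ y, S y = c • y := by
  have hg := hT.symm₂
  have h2 := hT.two
  obtain ⟨b, hb0, hb⟩ := hg.exists_isotropic hT.three_le
  obtain ⟨b', hb', hbb'⟩ := hg.exists_hyp hb hb0
  have hb'b : f₂ b' b = 1 := by rw [hg.symm]; exact hbb'
  have hb'0 : b' ≠ 0 := fun h0 => one_ne_zero (α := F) (by rw [← hbb', h0, hg.zero_right])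
  have sa : ∀ x y, f₂ (S x) y = f₂ (S y) x := fun x y => by
    rw [hT.cen_selfadjoint hM ha h, hg.symm]
  set k := f₂ (S b) b' with hk
  -- the values at `b + w - (f₂ w w / 2) b'`
  have key : ∀ {b b' : Fin d → F}, f₂ b b = 0 → f₂ b' b' = 0 → f₂ b b' = 1 → b' ≠ 0 → b ≠ 0 →
      ∀ w, f₂ w b = 0 → f₂ w b' = 0 →
        f₂ (S w) w = f₂ w w * f₂ (S b) b' ∧ 2 * f₂ (S b) w = f₂ w w * f₂ (S b') w := by
    intro b b' hb hb' hbb' hb'0 hb0 w hwb hwb'
    have hb'b : f₂ b' b = 1 := by rw [hg.symm]; exact hbb'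
    have hbw : f₂ b w = 0 := by rw [hg.symm]; exact hwb
    have hb'w : f₂ b' w = 0 := by rw [hg.symm]; exact hwb'
    have e : ∀ t : F, t * t = 1 →
        f₂ (S w) w + t * (2 * f₂ (S b) w) - f₂ w w * f₂ (S b) b' -
          t * (f₂ w w * f₂ (S b') w) = 0 := by
      intro t ht
      set x := b + t • w + (-(f₂ w w / 2)) • b' with hx
      have hxx : f₂ x x = 0 := by
        simp only [hx, hg.add_left, hg.add_right, hg.smul_left, hg.smul_right, hb, hb', hbb', hb'b,
          hwb, hwb', hbw, hb'w]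
        field_simp
        linear_combination (4 * f₂ w w) * ht
      have hx0 : x ≠ 0 := fun h0 => one_ne_zero (α := F) (by
        have := congrArg (fun v => f₂ v b') h0
        simp [hx, hg.add_left, hg.smul_left, hg.neg_left, hb', hbb', hwb', hg.zero_left] at this)
      have hq := hT.cen_quad hM ha h hxx hx0
      simp only [hx, map_add, map_smul, hg.add_left, hg.add_right, hg.smul_left, hg.smul_right,
        hT.cen_quad hM ha h hb hb0, hT.cen_quad hM ha h hb' hb'0, sa w b, sa b' b, sa w b'] at hq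
      field_simp at hq
      refine mul_left_cancel₀ h2 (mul_left_cancel₀ h2 ?_)
      linear_combination hq - (4 * f₂ (S w) w) * ht
    have e1 := e 1 (one_mul 1)
    have e2 := e (-1) (by ring)
    constructor
    · refine mul_left_cancel₀ h2 ?_
      linear_combination e1 + e2
    · refine mul_left_cancel₀ h2 ?_
      linear_combination e1 - e2
  have kw := key hb hb' hbb' hb'0 hb0
  have kw' := key hb' hb hb'b hb0 hb'0
  -- the mixed values vanish
  have hzero : ∀ w, f₂ w b = 0 → f₂ w b' = 0 → f₂ (S b') w = 0 := by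
    intro w hwb hwb'
    by_cases hμ : f₂ w w = 0
    · have := (kw' w hwb' hwb).2
      rw [hμ, zero_mul] at this
      exact (mul_eq_zero.mp this).resolve_left h2
    obtain ⟨w', hw'b, hw'b', hw'w, hw'⟩ :=
      hg.exists_aniso_pr_two (by have := hT.four₂; simp; omega) hb hb' hbb' hwb hwb' hμ
    have hww' : f₂ w w' = 0 := by rw [hg.symm]; exact hw'w
    have e1 := (kw (w + w') (by rw [hg.add_left, hwb, hw'b, add_zero])
      (by rw [hg.add_left, hwb', hw'b', add_zero])).2
    have e2 := (kw (w - w') (by rw [hg.sub_left, hwb, hw'b, sub_zero])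
      (by rw [hg.sub_left, hwb', hw'b', sub_zero])).2
    have e3 := (kw w hwb hwb').2
    have e4 := (kw w' hw'b hw'b').2
    simp only [hg.add_left, hg.sub_left, hg.add_right, hg.sub_right, hww', hw'w] at e1 e2
    refine (mul_eq_zero.mp (mul_left_cancel₀ h2 (?_ : 2 * (f₂ w' w' * f₂ (S b') w) =
      2 * 0))).resolve_left hw'
    linear_combination -(e1 + e2 - 2 * e3)
  have hzero' : ∀ w, f₂ w b = 0 → f₂ w b' = 0 → f₂ (S b) w = 0 := fun w hwb hwb' => by
    have := (kw w hwb hwb').2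
    rw [hzero w hwb hwb', mul_zero] at this
    exact (mul_eq_zero.mp this).resolve_left h2
  -- values on the complement
  have hL : ∀ w w', f₂ w b = 0 → f₂ w b' = 0 → f₂ w' b = 0 → f₂ w' b' = 0 →
      f₂ (S w) w' = k * f₂ w w' := by
    intro w w' h3 h4 h5 h6
    have e1 := (kw (w + w') (by rw [hg.add_left, h3, h5, add_zero])
      (by rw [hg.add_left, h4, h6, add_zero])).1
    have e2 := (kw w h3 h4).1
    have e3 := (kw w' h5 h6).1
    simp only [map_add, hg.add_left, hg.add_right, sa w' w, hg.symm w' w] at e1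
    refine mul_left_cancel₀ h2 ?_
    linear_combination e1 - e2 - e3
  refine ⟨k, fun y => hg.eq_of_forall fun z => ?_⟩
  set p := SymForm.pr f₂ b b' y with hp
  set q := SymForm.pr f₂ b b' z with hq
  obtain ⟨p1, p2⟩ := hg.pr_perp hb hb' hbb' y
  obtain ⟨q1, q2⟩ := hg.pr_perp hb hb' hbb' z
  rw [← hp] at p1 p2
  rw [← hq] at q1 q2
  rw [show y = p + f₂ y b' • b + f₂ y b • b' by rw [hp, SymForm.pr]; abel,
    show z = q + f₂ z b' • b + f₂ z b • b' by rw [hq, SymForm.pr]; abel]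
  simp only [map_add, map_smul, hg.add_left, hg.add_right, hg.smul_left, hg.smul_right,
    hT.cen_quad hM ha h hb hb0, hT.cen_quad hM ha h hb' hb'0, hL p q p1 p2 q1 q2, sa p b, sa p b',
    sa b' b, hzero p p1 p2, hzero' p p1 p2, hzero q q1 q2, hzero' q q1 q2, hb, hb', hbb', hb'b,
    p1, p2, hg.symm b q, hg.symm b' q, q1, q2, ← hk]
  ring

end CfsgLib.Geometric.SympOrth.Data
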