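import Cfsg.Agent.Lib.Geometric.SympOrth.Involution

/-!
Conjugates of reflections of the second factor inside the stabiliser, and the final step: if all of
them lie there then so does the whole overgroup.
-/

set_option autoImplicit false
set_option linter.unusedSectionVars false

namespace CfsgLib.Geometric.SympOrth.Data

open Matrix Tensor OrthTensor

variable {ι : Type} [Fintype ι] [DecidableEq ι] {F : Type*} [Field F]
variable {f : (ι → F) → (ι → F) → F} {n d : ℕ} {e : ι ≃ Fin n × Fin d} {P : GL ι F}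
  {f₁ : (Fin n → F) → (Fin n → F) → F} {f₂ : (Fin d → F) → (Fin d → F) → F}

section
variable (hT : Data f e P f₁ f₂)
include hT

lemma kron_left_inj {a a' : GL (Fin n) F}
    (h : kron e P a (1 : GL (Fin d) F) = kron e P a' 1) : a = a' := by
  obtain ⟨v, hv⟩ := hT.exists_aniso
  refine gl_ext fun x => pt_inj_left e P (y := v) (fun h0 => hv (by rw [h0, hT.symm₂.zero_left])) ?_
  simpa using congrArg (fun k => ap k (pt e P x v)) h

lemma R_mul_self {v : Fin d → F} (hv : f₂ v v ≠ 0) : hT.R v * hT.R v = 1 := by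
  rw [R, kron_mul, one_mul, hT.r_mul_self hv, kron_one]

lemma R_ne_one {v : Fin d → F} (hv : f₂ v v ≠ 0) : hT.R v ≠ 1 := fun h => by
  obtain ⟨p, hp⟩ := hT.exists_nonzero
  have hv0 : v ≠ 0 := fun h0 => hv (by rw [h0, hT.symm₂.zero_left])
  have h3 := congrArg (fun k => ap k (pt e P p v)) h
  simp only [R, ap_kron, ap_one, hT.ap_r_self hv, pt_neg_right] at h3
  exact pt_ne_zero e P hp hv0 ((smul_eq_zero.mp (show (2 : F) • pt e P p v = 0 by
    linear_combination (norm := module) -h3)).resolve_left hT.two)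

/-- Involutory isometries with both eigenvalues have eigenvectors for both. -/
lemma exists_eigen {κ : Type} [Fintype κ] [DecidableEq κ] {a : GL κ F} (haa : a * a = 1)
    (s : F) (hs : s * s = 1) (hne : ¬ ∀ x, ap a x = -s • x) : ∃ u, u ≠ 0 ∧ ap a u = s • u := by
  push Not at hne
  obtain ⟨x, hx⟩ := hne
  refine ⟨ap a x + s • x, fun h0 => hx ?_, ?_⟩
  · rw [eq_neg_of_add_eq_zero_left h0, neg_smul]
  · rw [ap_add, ap_smul, ← ap_mul, haa, ap_one, smul_add, smul_smul, hs, one_smul, add_comm]

variable [Finite F]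

/-- A factorwise involution whose negative eigenspace has the dimension of the first factor comes
from one factor. -/
lemma split_of_rank {y : GL ι F} (hy : y ∈ Cfsg.Geo.tensorProductSubgroup n d e P)
    (hyI : y ∈ isom f) (hy2 : y * y = 1) (hdim : Module.finrank F (negSpace y) = n) :
    (∃ a ∈ isom f₁, a * a = 1 ∧ y = kron e P a (1 : GL (Fin d) F)) ∨
      ∃ b ∈ isom f₂, b * b = 1 ∧ y = kron e P (1 : GL (Fin n) F) b := by
  have hn := hT.four₁
  have hd := hT.four₂
  have h2 := hT.two
  obtain ⟨a, ha, b, hb, haa, hbb, rfl⟩ := hT.involution_split hy hyI hy2 (by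
    rw [hdim]
    intro h
    nlinarith)
  by_cases ha1 : ∀ x, ap a x = -(-1 : F) • x
  · exact Or.inr ⟨b, hb, hbb, by
      rw [show a = 1 from gl_ext fun x => by rw [ha1, ap_one]; simp]⟩
  by_cases ha2 : ∀ x, ap a x = -(1 : F) • x
  · set b' : GL (Fin d) F := ofEquiv ((apEquiv b).trans (LinearEquiv.neg F)) with hb'
    have apb : ∀ z, ap b' z = -ap b z := fun z => by rw [hb', ap_ofEquiv]; rfl
    refine Or.inr ⟨b', mem_isom_iff.mpr fun z z' => ?_, gl_ext fun z => ?_,
      gl_ext_pt e P fun x z => ?_⟩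
    · rw [apb, apb, hT.symm₂.neg_left, hT.symm₂.neg_right, neg_neg, mem_isom_iff.mp hb]
    · rw [ap_mul, apb, apb, ← neg_one_smul F (ap b z), ap_smul, ← ap_mul, hbb, ap_one]
      module
    · rw [ap_kron, ap_kron, ap_one, ha2, apb, pt_smul_left, pt_neg_right]
      module
  by_cases hb1 : ∀ z, ap b z = -(-1 : F) • z
  · exact Or.inl ⟨a, ha, haa, by
      rw [show b = 1 from gl_ext fun x => by rw [hb1, ap_one]; simp]⟩
  by_cases hb2 : ∀ z, ap b z = -(1 : F) • z
  · set a' : GL (Fin n) F := ofEquiv ((apEquiv a).trans (LinearEquiv.neg F)) with ha'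
    have apa : ∀ z, ap a' z = -ap a z := fun z => by rw [ha', ap_ofEquiv]; rfl
    refine Or.inl ⟨a', mem_isom_iff.mpr fun z z' => ?_, gl_ext fun z => ?_,
      gl_ext_pt e P fun x z => ?_⟩
    · rw [apa, apa, Symp.neg_left hT.symp₁, Symp.neg_right hT.symp₁, neg_neg, mem_isom_iff.mp ha]
    · rw [ap_mul, apa, apa, ← neg_one_smul F (ap a z), ap_smul, ← ap_mul, haa, ap_one]
      module
    · rw [ap_kron, ap_kron, ap_one, hb2, apa, pt_smul_right, ← neg_one_smul F (ap a x),
        pt_smul_left]
  -- both factors have both eigenvalues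
  exfalso
  obtain ⟨vp, hvp0, hvp⟩ := hT.exists_eigen hbb 1 (one_mul 1) hb2
  obtain ⟨vm, hvm0, hvm⟩ := hT.exists_eigen hbb (-1) (by ring) hb1
  let B : F → Submodule F (Fin d → F) := fun s =>
    LinearMap.ker ((apEquiv b).toLinearMap - s • LinearMap.id)
  have hBm : ∀ s z, z ∈ B s ↔ ap b z = s • z := fun s z => by simp [B, sub_eq_zero]
  obtain ⟨s, hs, v', hv's, hv'⟩ : ∃ s : F, s * s = 1 ∧ ∃ v', ap b v' = s • v' ∧
      v' ∉ Submodule.span F {vp, vm} := by
    by_contra hc
    push Not at hc
    have htop : (⊤ : Submodule F (Fin d → F)) ≤ Submodule.span F {vp, vm} := fun z _ => by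
      have h1 := hc 1 (one_mul 1) ((2 : F)⁻¹ • (z + ap b z)) (by
        rw [ap_smul, ap_add, ← ap_mul, hbb, ap_one]; module)
      have h3 := hc (-1) (by ring) ((2 : F)⁻¹ • (z - ap b z)) (by
        rw [ap_smul, ap_sub, ← ap_mul, hbb, ap_one]; module)
      convert Submodule.add_mem _ h1 h3 using 1
      match_scalars <;> field_simp <;> ring
    have h4 := Submodule.finrank_mono htop
    rw [finrank_top, Module.finrank_fin_fun] at h4
    classical
    have h5 := finrank_span_finset_le_card (R := F) ({vp, vm} : Finset (Fin d → F))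
    rw [Set.finrank, Finset.coe_insert, Finset.coe_singleton] at h5
    have h6 : ({vp, vm} : Finset (Fin d → F)).card ≤ 2 := Finset.card_le_two
    omega
  obtain ⟨q, hq0, hq⟩ := hT.exists_eigen haa (-s) (by rw [neg_mul_neg, hs]) (by
    rcases mul_self_eq_one_iff.mp hs with rfl | rfl
    · exact ha1
    · rw [neg_neg]; exact ha2)
  let A : F → (Fin n → F) →ₗ[F] (Fin n → F) := fun t =>
    LinearMap.id + t • (apEquiv a).toLinearMap
  let Θ : (Fin n → F) × (Submodule.span F {q}) →ₗ[F] (ι → F) :=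
    ((ptl e P vm).comp (A 1) + (ptl e P vp).comp (A (-1))).coprod
      ((ptl e P v').comp (Submodule.span F {q}).subtype)
  have hΘ : Function.Injective Θ := (injective_iff_map_eq_zero _).mpr fun z hz => by
    obtain ⟨φ, hφ, hφ1⟩ := exists_functional_eq_one hv'
    have hind : vm ∉ Submodule.span F {vp} := fun h => by
      obtain ⟨c, rfl⟩ := Submodule.mem_span_singleton.mp h
      rw [ap_smul, hvp] at hvm
      exact hvm0 ((smul_eq_zero.mp (show (2 : F) • c • vp = 0 by
        linear_combination (norm := module) hvm)).resolve_left h2)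
    obtain ⟨ψ, hψ, hψ1⟩ := exists_functional_eq_one hind
    obtain ⟨χ, -, hχ1⟩ := exists_functional_eq_one (U := ⊥) (x := vp) (by simpa using hvp0)
    have e0 := congrArg (con e P φ) hz
    simp only [Θ, LinearMap.coprod_apply, LinearMap.add_apply, LinearMap.comp_apply, ptl_apply,
      map_add, con_pt, hφ vm (Submodule.subset_span (by simp)),
      hφ vp (Submodule.subset_span (by simp)), hφ1, zero_smul, add_zero, zero_add, one_smul,
      Submodule.subtype_apply, map_zero] at e0
    have e1 := congrArg (con e P ψ) hz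
    have e2 := congrArg (con e P χ) hz
    simp only [Θ, LinearMap.coprod_apply, LinearMap.add_apply, LinearMap.comp_apply, ptl_apply,
      map_add, con_pt, hψ vp (Submodule.mem_span_singleton_self vp), hψ1, hχ1, zero_smul, add_zero,
      one_smul, Submodule.subtype_apply, map_zero, e0, smul_zero] at e1 e2
    rw [e1, smul_zero, zero_add] at e2
    have e3 : (2 : F) • z.1 = 0 := by
      have : A 1 z.1 + A (-1) z.1 = 0 := by rw [e1, e2, add_zero]
      simp only [A, LinearMap.add_apply, LinearMap.smul_apply, LinearMap.id_apply] at this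
      linear_combination (norm := module) this
    exact Prod.ext ((smul_eq_zero.mp e3).resolve_left h2) (Subtype.ext e0)
  have hle : LinearMap.range Θ ≤ negSpace (kron e P a b) := by
    rintro _ ⟨z, rfl⟩
    obtain ⟨c, hc⟩ := Submodule.mem_span_singleton.mp z.2.2
    have haz : ap a (ap a z.1) = z.1 := by rw [← ap_mul, haa, ap_one]
    rw [mem_negSpace]
    simp only [Θ, A, LinearMap.coprod_apply, LinearMap.add_apply, LinearMap.comp_apply, ptl_apply,
      LinearMap.smul_apply, LinearMap.id_apply, LinearEquiv.coe_coe, apEquiv_apply,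
      Submodule.subtype_apply, ← hc, ap_add, ap_kron, ap_smul, haz, hvm, hvp, hv's, hq, one_smul,
      pt_add_left, pt_smul_left, pt_smul_right, smul_smul]
    match_scalars <;> first | linear_combination c * hs | linear_combination -c * hs | linear_combination (2 * c) * hs | linear_combination (-2 * c) * hs | ring
  have hfin := Submodule.finrank_mono hle
  rw [LinearMap.finrank_range_of_inj hΘ, Module.finrank_prod, Module.finrank_fin_fun,
    finrank_span_singleton hq0, hdim] at hfin
  omega

end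

variable [Finite F] (hT : Data f e P f₁ f₂) {M : Subgroup (GL ι F)} (hM : hT.Small M)
include hT hM

local notation "H₀" => Cfsg.Geo.tensorProductSubgroup n d e P

/-- An element carrying a reflection of the second factor to the first factor lies in the
stabiliser. -/
lemma mem_of_R_to_left {v : Fin d → F} (hv : f₂ v v ≠ 0) {g : GL ι F} (hg : g ∈ M)
    {a : GL (Fin n) F} (haa : a * a = 1)
    (h : g * hT.R v * g⁻¹ = kron e P a (1 : GL (Fin d) F)) : g ∈ H₀ := by
  have h2 := hT.two
  have hg₂ := hT.symm₂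
  obtain ⟨u, hu, hau⟩ := hT.exists_eigen haa (-1) (by ring) (fun hall => by
    have : a = 1 := gl_ext fun x => by rw [hall, ap_one]; simp
    rw [this, kron_one, conj_eq_one_iff] at h
    exact hT.R_ne_one hv h)
  set y := g * hT.R v * g⁻¹ with hy
  have hyI : y ∈ isom f := hM.le_isom (mul_mem (mul_mem hg (hM.le (hT.R_mem v))) (inv_mem hg))
  have hyu : ∀ z, ap y (pt e P u z) = -pt e P u z := fun z => by
    rw [h, ap_kron, ap_one, hau, pt_smul_left, neg_one_smul]
  -- a pure tensor moved onto the slice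
  set x := ap g⁻¹ (pt e P u v) with hx
  have hxv : x = pt e P ((1 / f₂ v v) • hT.cc v x) v := by
    have h1 := congrArg (ap g⁻¹) (hyu v)
    rw [hy, ap_mul, ap_mul, ap_inv_ap, ← hx, ← neg_one_smul F (pt e P u v), ap_smul, ← hx,
      hT.ap_R] at h1
    rw [pt_smul_left]
    apply smul_right_injective (ι → F) h2
    show (2 : F) • x = (2 : F) • _
    rw [smul_smul, mul_one_div]
    linear_combination (norm := module) h1
  set v' := (1 / f₂ v v) • hT.cc v x with hv'
  have hgv : ap g (pt e P v' v) = pt e P u v := by rw [← hxv, hx, ap_ap_inv]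
  have hv'0 : v' ≠ 0 := fun h0 => by
    rw [h0, pt_zero_left, ap_zero] at hgv
    exact pt_ne_zero e P hu (fun hv0 => hv (by rw [hv0, hg₂.zero_left])) hgv.symm
  refine hT.mem_of_ortho hM hv'0 hu hg fun z z' => ?_
  set c := f₂ z v / f₂ v v with hc
  have hz0 : f₂ (z - c • v) v = 0 := by
    rw [hg₂.sub_left, hg₂.smul_left, hc, div_mul_cancel₀ _ hv, sub_self]
  have hX : ap y (ap g (pt e P v' (z - c • v))) = ap g (pt e P v' (z - c • v)) := by
    rw [hy, ap_mul, ap_mul, ap_inv_ap, R, ap_kron, ap_one, hT.ap_r_perp hz0]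
  have h3 := mem_isom_iff.mp hyI (ap g (pt e P v' (z - c • v))) (pt e P u z')
  rw [hX, hyu, Symp.neg_right hT.symp] at h3
  have h4 : f (ap g (pt e P v' (z - c • v))) (pt e P u z') = 0 :=
    (mul_eq_zero.mp (show (2 : F) * f (ap g (pt e P v' (z - c • v))) (pt e P u z') = 0 by
      linear_combination -h3)).resolve_left h2
  rw [pt_sub_right, pt_smul_right, ap_sub, ap_smul, hgv, Symp.sub_left hT.symp,
    hT.symp.bilinear.smul_left, hT.form, hT.symp₁.alternating, zero_mul, mul_zero, sub_zero] at h4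
  exact h4

/-- An element commuting with all the reflections of the second factor lies in the stabiliser. -/
lemma mem_of_comm_all {k : GL ι F} (hk : k ∈ M)
    (hc : ∀ w, f₂ w w ≠ 0 → k * hT.R w = hT.R w * k) : k ∈ H₀ := by
  have hg₂ := hT.symm₂
  have h2 := hT.two
  obtain ⟨v, hv⟩ := hT.exists_aniso
  have hv0 : v ≠ 0 := fun h => hv (by rw [h, hg₂.zero_left])
  obtain ⟨a, ha⟩ := hT.exists_nonzero
  have hkR : ∀ w, f₂ w w ≠ 0 → ∀ x, ap k (ap (hT.R w) x) = ap (hT.R w) (ap k x) :=
    fun w hw x => by rw [← ap_mul, hc w hw, ap_mul]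
  set b := (1 / f₂ v v) • hT.cc v (ap k (pt e P a v)) with hbdef
  have hkv : ap k (pt e P a v) = pt e P b v := by
    have h1 := hkR v hv (pt e P a v)
    rw [R, ap_kron, ap_one, hT.ap_r_self hv, ← R, pt_neg_right, ← neg_one_smul F (pt e P a v),
      ap_smul, hT.ap_R] at h1
    rw [hbdef, pt_smul_left]
    apply smul_right_injective (ι → F) h2
    show (2 : F) • _ = (2 : F) • _
    rw [smul_smul, mul_one_div]
    linear_combination (norm := module) -h1
  let L : (Fin d → F) →ₗ[F] (ι → F) := (apEquiv k).toLinearMap.comp (ptr e P a) - ptr e P b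
  have hL : ∀ z, L z = ap k (pt e P a z) - pt e P b z := fun z => rfl
  have hL0 : ∀ z, f₂ z z ≠ 0 → f₂ v z ≠ 0 → L z = 0 := by
    intro z hz hvz
    have h1 := hkR z hz (pt e P a v)
    rw [hkv, R, ap_kron, ap_kron, ap_one, ap_one, hT.ap_r, pt_sub_right, pt_sub_right,
      pt_smul_right, pt_smul_right, ap_sub, ap_smul, hkv, sub_right_inj] at h1
    rw [hL, sub_eq_zero]
    exact smul_right_injective (ι → F) (mul_ne_zero (div_ne_zero h2 hz) hvz) h1
  have hLv : L v = 0 := by rw [hL, hkv, sub_self]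
  have hperp : ∀ z, f₂ z v = 0 → f₂ z z ≠ -f₂ v v → L z = 0 := by
    intro z hz hne
    have := hL0 (z + v)
      (by
        rw [hg₂.add_left, hg₂.add_right, hg₂.add_right, hz, hg₂.symm v z, hz]
        intro h0
        exact hne (by linear_combination h0))
      (by rw [hg₂.add_right, hg₂.symm v z, hz, zero_add]; exact hv)
    rwa [map_add, hLv, add_zero] at this
  have hall : ∀ z, f₂ z v = 0 → L z = 0 := by
    intro z hz
    by_cases hne : f₂ z z = -f₂ v v
    swap
    · exact hperp z hz hne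
    have hz0 : f₂ z z ≠ 0 := by rw [hne]; exact neg_ne_zero.mpr hv
    obtain ⟨z', hz'v, hz'z, hz'⟩ : ∃ z', f₂ z' v = 0 ∧ f₂ z' z = 0 ∧ f₂ z' z' ≠ 0 := by
      obtain ⟨x, hx, hx0⟩ := Submodule.exists_mem_ne_zero_of_ne_bot
        (LinearMap.ker_ne_bot_of_finrank_lt (f := (hg₂.fl v).prod (hg₂.fl z))
          (by have := hT.four₂; simp; omega))
      obtain ⟨hx1, hx2⟩ : f₂ x v = 0 ∧ f₂ x z = 0 := by simpa using hx
      obtain ⟨y, hy⟩ := hg₂.exists_ne hx0
      set y' := y - (f₂ y v / f₂ v v) • v - (f₂ y z / f₂ z z) • z with hy'def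
      have hK : ∀ w, w ∈ LinearMap.ker ((hg₂.fl v).prod (hg₂.fl z)) ↔
          f₂ w v = 0 ∧ f₂ w z = 0 := fun w => by simp
      have hy' : y' ∈ LinearMap.ker ((hg₂.fl v).prod (hg₂.fl z)) := (hK _).mpr
        ⟨by
          rw [hy'def, hg₂.sub_left, hg₂.sub_left, hg₂.smul_left, hg₂.smul_left,
            div_mul_cancel₀ _ hv, hz]; ring,
        by
          rw [hy'def, hg₂.sub_left, hg₂.sub_left, hg₂.smul_left, hg₂.smul_left,
            div_mul_cancel₀ _ hz0, hg₂.symm v z, hz]; ring⟩
      have hxy : f₂ x y' ≠ 0 := by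
        rw [hy'def, hg₂.sub_right, hg₂.sub_right, hg₂.smul_right, hg₂.smul_right, hx1, hx2]
        simpa using hy
      obtain ⟨z', hz', hzz⟩ := hg₂.exists_aniso_in hx hy' hxy
      exact ⟨z', ((hK _).mp hz').1, ((hK _).mp hz').2, hzz⟩
    have hzz' : f₂ z z' = 0 := by rw [hg₂.symm, hz'z]
    have e1 := hperp (z + z') (by rw [hg₂.add_left, hz, hz'v, add_zero]) (by
      rw [hg₂.add_left, hg₂.add_right, hg₂.add_right, hne, hz'z, hzz']
      intro h0
      exact hz' (by linear_combination h0))
    have e2 := hperp (z - z') (by rw [hg₂.sub_left, hz, hz'v, sub_zero]) (by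
      rw [hg₂.sub_left, hg₂.sub_right, hg₂.sub_right, hne, hz'z, hzz']
      intro h0
      exact hz' (by linear_combination h0))
    rw [map_add] at e1
    rw [map_sub] at e2
    exact (smul_eq_zero.mp (show (2 : F) • L z = 0 by
      linear_combination (norm := module) e1 + e2)).resolve_left h2
  refine hT.mem_of_slice hM (x₀ := b) ha hk fun z => ⟨z, sub_eq_zero.mp ?_⟩
  rw [← hL, show z = (z - (f₂ z v / f₂ v v) • v) + (f₂ z v / f₂ v v) • v by abel, map_add,
    map_smul, hLv, smul_zero, add_zero]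
  exact hall _ (by rw [hg₂.sub_left, hg₂.smul_left, div_mul_cancel₀ _ hv, sub_self])

/-- If every conjugate of a reflection of the second factor lies in the stabiliser, so does the
overgroup. -/
theorem le_of_conj_R (h : ∀ g ∈ M, ∀ v, f₂ v v ≠ 0 → g * hT.R v * g⁻¹ ∈ H₀) : M ≤ H₀ := by
  intro g hg
  by_contra hgH
  obtain ⟨u, hu⟩ := hT.exists_nonzero
  set T := kron e P (Symp.T hT.symp₁ u 1) (1 : GL (Fin d) F) with hTdef
  refine hgH ?_
  have hk : g⁻¹ * T * g ∈ H₀ := by
    refine hT.mem_of_comm_all hM (mul_mem (mul_mem (inv_mem hg) (hT.T₁_mem hM u)) hg) fun w hw => ?_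
    have hyM : g * hT.R w * g⁻¹ ∈ M := mul_mem (mul_mem hg (hM.le (hT.R_mem w))) (inv_mem hg)
    rcases hT.split_of_rank (h g hg w hw) (hM.le_isom hyM)
        (by rw [conj_mul, hT.R_mul_self hw, mul_one, mul_inv_cancel])
        (by rw [finrank_negSpace_conj, hT.finrank_negSpace_R hw]) with
      ⟨a, -, haa, hy⟩ | ⟨b, -, -, hy⟩
    · exact absurd (hT.mem_of_R_to_left hM hw hg haa hy) hgH
    · have e1 : g * hT.R w * g⁻¹ * T = T * (g * hT.R w * g⁻¹) := by
        rw [hy, hTdef, kron_mul, kron_mul, mul_one, one_mul, mul_one, one_mul]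
      calc g⁻¹ * T * g * hT.R w = g⁻¹ * (T * (g * hT.R w * g⁻¹)) * g := by group
        _ = g⁻¹ * (g * hT.R w * g⁻¹ * T) * g := by rw [e1]
        _ = hT.R w * (g⁻¹ * T * g) := by group
  have := hT.mem_of_conj_T hM hu (inv_mem hg) (by rwa [inv_inv])
  simpa using inv_mem this

end CfsgLib.Geometric.SympOrth.Data
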