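import Cfsg.Agent.Lib.Geometric.SympOrth.Transvection

/-!
Factorwise involutions preserving a tensor product of a symplectic and an orthogonal space: unless
both eigenspaces have the same dimension their factors can be taken to be involutory isometries.
The plane involutions of the first factor.
-/

set_option autoImplicit false
set_option linter.unusedSectionVars false

namespace CfsgLib.Geometric.SympOrth.Data

open Matrix Tensor OrthTensor

variable {ι : Type} [Fintype ι] [DecidableEq ι] {F : Type*} [Field F]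
variable {f : (ι → F) → (ι → F) → F} {n d : ℕ} {e : ι ≃ Fin n × Fin d} {P : GL ι F}
  {f₁ : (Fin n → F) → (Fin n → F) → F} {f₂ : (Fin d → F) → (Fin d → F) → F}

/-- The `(-1)`-eigenspace. -/
def negSpace (y : GL ι F) : Submodule F (ι → F) :=
  LinearMap.ker ((apEquiv y).toLinearMap + LinearMap.id)

lemma mem_negSpace {y : GL ι F} {x : ι → F} : x ∈ negSpace y ↔ ap y x = -x := by
  simp [negSpace, add_eq_zero_iff_eq_neg]

lemma finrank_negSpace_conj (g y : GL ι F) :
    Module.finrank F (negSpace (g * y * g⁻¹)) = Module.finrank F (negSpace y) := by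
  have : negSpace (g * y * g⁻¹) = (negSpace y).map (apEquiv g).toLinearMap := by
    ext x
    rw [mem_negSpace, Submodule.mem_map]
    refine ⟨fun h => ⟨ap g⁻¹ x, mem_negSpace.mpr (ap_injective g ?_), ap_ap_inv g x⟩, ?_⟩
    · rw [ap_mul, ap_mul] at h
      rw [h, ← neg_one_smul F x, ← neg_one_smul F (ap g⁻¹ x), ap_smul, ap_ap_inv]
    · rintro ⟨z, hz, rfl⟩
      simp only [LinearEquiv.coe_coe, apEquiv_apply]
      rw [ap_mul, ap_mul, ap_inv_ap, mem_negSpace.mp hz, ← neg_one_smul F z, ap_smul,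
        neg_one_smul]
  rw [this, LinearEquiv.finrank_map_eq]

lemma finrank_negSpace_neg {p q : GL ι F} (h2 : (2 : F) ≠ 0) (hp : p * p = 1)
    (hq : ∀ x, ap q x = -ap p x) :
    Module.finrank F (negSpace p) + Module.finrank F (negSpace q) = Fintype.card ι := by
  have hpx : ∀ x, ap p (ap p x) = x := fun x => by rw [← ap_mul, hp, ap_one]
  have hc : IsCompl (negSpace p) (negSpace q) := by
    refine ⟨Submodule.disjoint_def.mpr fun x h1 h2' => ?_,
      codisjoint_iff.mpr (eq_top_iff.mpr fun x _ => Submodule.mem_sup.mpr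
        ⟨(2 : F)⁻¹ • (x - ap p x), ?_, (2 : F)⁻¹ • (x + ap p x), ?_, ?_⟩)⟩
    · rw [mem_negSpace] at h1 h2'
      rw [hq, h1, neg_neg] at h2'
      exact (smul_eq_zero.mp (show (2 : F) • x = 0 by
        linear_combination (norm := module) h2')).resolve_left h2
    · rw [mem_negSpace, ap_smul, ap_sub, hpx]; module
    · rw [mem_negSpace, hq, ap_smul, ap_add, hpx]; module
    · match_scalars <;> field_simp <;> ring
  rw [Submodule.finrank_add_eq_of_isCompl hc, Module.finrank_fintype_fun_eq_card]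

omit [Fintype ι] [DecidableEq ι] in
/-- A vector killed against two complementary eigenspaces. -/
lemma two_mul_finrank_le {κ : Type} [Fintype κ] {g : (κ → F) → (κ → F) → F}
    (hg : Cfsg.Geo.IsBilinearForm g) (hn : ∀ v, v ≠ 0 → ∃ x, g v x ≠ 0)
    (K : Submodule F (κ → F)) (hK : ∀ x ∈ K, ∀ y ∈ K, g x y = 0) :
    2 * Module.finrank F K ≤ Fintype.card κ := by
  let B : (κ → F) →ₗ[F] (κ → F) →ₗ[F] F :=
    LinearMap.mk₂ F g hg.add_left hg.smul_left (fun v x y => hg.add_right v x y)
      fun t v x => hg.smul_right t v x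
  let Ψ : K →ₗ[F] ((κ → F) ⧸ K) →ₗ[F] F :=
    { toFun := fun z => K.liftQ (B z.1) fun z' hz' => by
        simpa [B] using hK z.1 z.2 z' hz'
      map_add' := fun z z' => Submodule.linearMap_qext _ (LinearMap.ext fun w => by
        simp [B])
      map_smul' := fun t z => Submodule.linearMap_qext _ (LinearMap.ext fun w => by
        simp [B]) }
  have hΨ : Function.Injective Ψ := (injective_iff_map_eq_zero _).mpr fun z hz => by
    by_contra hne
    obtain ⟨w, hw⟩ := hn z.1 fun h0 => hne (Subtype.ext h0)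
    exact hw (LinearMap.congr_fun hz (Submodule.Quotient.mk w))
  have h1 := LinearMap.finrank_le_finrank_of_injective hΨ
  rw [Subspace.dual_finrank_eq] at h1
  have h2 := Submodule.finrank_quotient_add_finrank K
  rw [Module.finrank_fintype_fun_eq_card] at h2
  omega

/-- A map with non-square scalar square anticommutes with some bijection. -/
lemma exists_anticomm_of_nonsquare [Finite F] {a : GL (Fin n) F} {t : F}
    (ht : ∀ x, ap a (ap a x) = t • x) (hns : ∀ s : F, s * s ≠ t) :
    ∃ c : (Fin n → F) ≃ₗ[F] (Fin n → F), ∀ x, c (ap a x) = -ap a (c x) := by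
  classical
  have h2 : ∀ (X : Submodule F (Fin n → F)), ∀ x ∈ X.map (apEquiv a).toLinearMap,
      ap a x ∈ X := by
    rintro X _ ⟨z, hz, rfl⟩
    simpa [ht] using X.smul_mem t hz
  obtain ⟨X, hX, hmax⟩ := Set.Finite.exists_maximalFor (fun X : Submodule F (Fin n → F) => Module.finrank F X)
    {X : Submodule F (Fin n → F) | X ⊓ X.map (apEquiv a).toLinearMap = ⊥} (Set.toFinite _)
    ⟨⊥, by simp⟩
  set Y := X.map (apEquiv a).toLinearMap with hY
  have hstab : ∀ z ∈ X ⊔ Y, ap a z ∈ X ⊔ Y := by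
    intro z hz
    obtain ⟨x, hx, y, hy, rfl⟩ := Submodule.mem_sup.mp hz
    rw [ap_add]
    exact Submodule.add_mem _ (Submodule.mem_sup_right ⟨x, hx, rfl⟩)
      (Submodule.mem_sup_left (h2 X y hy))
  have htop : X ⊔ Y = ⊤ := by
    by_contra hne
    obtain ⟨u, -, hu⟩ := SetLike.exists_of_lt (lt_top_iff_ne_top.mpr hne)
    have hX' : (X ⊔ Submodule.span F {u}) ⊓
        (X ⊔ Submodule.span F {u}).map (apEquiv a).toLinearMap = ⊥ := by
      rw [eq_bot_iff]
      rintro z ⟨hz1, hz2⟩
      obtain ⟨x, hx, _, hc, rfl⟩ := Submodule.mem_sup.mp hz1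
      obtain ⟨c, rfl⟩ := Submodule.mem_span_singleton.mp hc
      obtain ⟨w, hw, hwe⟩ := hz2
      obtain ⟨x', hx', _, hc', rfl⟩ := Submodule.mem_sup.mp hw
      obtain ⟨c', rfl⟩ := Submodule.mem_span_singleton.mp hc'
      simp only [LinearEquiv.coe_coe, apEquiv_apply, ap_add, ap_smul] at hwe
      have h3 : c • u - c' • ap a u ∈ X ⊔ Y := by
        rw [show c • u - c' • ap a u = ap a x' - x by linear_combination (norm := module) -hwe]
        exact Submodule.sub_mem _ (Submodule.mem_sup_right ⟨x', hx', rfl⟩)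
          (Submodule.mem_sup_left hx)
      have h4 : c • ap a u - (c' * t) • u ∈ X ⊔ Y := by
        have := hstab _ h3
        rwa [ap_sub, ap_smul, ap_smul, ht, smul_smul] at this
      have h5 : (c * c - c' * c' * t) • u ∈ X ⊔ Y := by
        have := Submodule.add_mem _ (Submodule.smul_mem _ c h3) (Submodule.smul_mem _ c' h4)
        convert this using 1
        module
      have h6 : c * c - c' * c' * t = 0 := by
        by_contra h0
        exact hu (by simpa [h0] using Submodule.smul_mem _ (c * c - c' * c' * t)⁻¹ h5)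
      have hc'0 : c' = 0 := by
        by_contra h0
        exact hns (c / c') (by field_simp; linear_combination h6)
      have hc0 : c = 0 := by
        rw [hc'0] at h6
        exact mul_self_eq_zero.mp (by linear_combination h6)
      simp only [hc0, hc'0, zero_smul, add_zero] at hwe ⊢
      have : x ∈ X ⊓ Y := ⟨hx, x', hx', hwe⟩
      rwa [hX, Submodule.mem_bot] at this
    have hlt : X < X ⊔ Submodule.span F {u} := lt_of_le_of_ne le_sup_left fun he => hu
      (Submodule.mem_sup_left (he.symm ▸ Submodule.mem_sup_right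
        (Submodule.mem_span_singleton_self u)))
    have := hmax hX' (Submodule.finrank_mono hlt.le)
    exact absurd (Submodule.finrank_lt_finrank_of_lt hlt) (not_lt.mpr this)
  have hXY : IsCompl X Y := ⟨disjoint_iff.mpr hX, codisjoint_iff.mpr htop⟩
  set E := Submodule.prodEquivOfIsCompl X Y hXY
  refine ⟨E.symm.trans (((LinearEquiv.refl F X).prodCongr (LinearEquiv.neg F)).trans E), fun z => ?_⟩
  obtain ⟨⟨⟨x, hx⟩, ⟨y, hy⟩⟩, rfl⟩ := E.surjective z
  have hz : ∀ (p : X) (q : Y), E (p, q) = (p : Fin n → F) + q := fun p q => by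
    simp [E]
  have he : ap a (E (⟨x, hx⟩, ⟨y, hy⟩)) = E (⟨ap a y, h2 X y hy⟩, ⟨ap a x, x, hx, rfl⟩) := by
    rw [hz, hz, ap_add, add_comm]
  rw [he]
  simp only [LinearEquiv.trans_apply, LinearEquiv.symm_apply_apply]
  simp only [LinearEquiv.prodCongr_apply, LinearEquiv.refl_apply, LinearEquiv.neg_apply, hz,
    Submodule.coe_neg]
  rw [ap_add, ← neg_one_smul F y, ap_smul, neg_one_smul, neg_add_rev, neg_neg]

/-- An involution multiplying a symplectic form by `-1` anticommutes with some bijection. -/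
lemma exists_anticomm_of_anti (hs : Cfsg.Geo.IsSymplecticForm f₁) (h2 : (2 : F) ≠ 0)
    {a : GL (Fin n) F} (haa : ∀ x, ap a (ap a x) = x)
    (ha : ∀ x y, f₁ (ap a x) (ap a y) = -f₁ x y) :
    ∃ c : (Fin n → F) ≃ₗ[F] (Fin n → F), ∀ x, c (ap a x) = -ap a (c x) := by
  set X := LinearMap.ker ((apEquiv a).toLinearMap - LinearMap.id) with hXdef
  set Y := LinearMap.ker ((apEquiv a).toLinearMap + LinearMap.id) with hYdef
  have hXm : ∀ x, x ∈ X ↔ ap a x = x := fun x => by simp [X, sub_eq_zero]
  have hYm : ∀ x, x ∈ Y ↔ ap a x = -x := fun x => by simp [Y, add_eq_zero_iff_eq_neg]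
  have hXY : IsCompl X Y := by
    refine ⟨Submodule.disjoint_def.mpr fun x h1 h1' => ?_,
      codisjoint_iff.mpr (eq_top_iff.mpr fun x _ => Submodule.mem_sup.mpr
        ⟨(2 : F)⁻¹ • (x + ap a x), ?_, (2 : F)⁻¹ • (x - ap a x), ?_, ?_⟩)⟩
    · rw [hXm] at h1
      rw [hYm, h1] at h1'
      exact (smul_eq_zero.mp (show (2 : F) • x = 0 by
        linear_combination (norm := module) h1')).resolve_left h2
    · rw [hXm, ap_smul, ap_add, haa, add_comm]
    · rw [hYm, ap_smul, ap_sub, haa]; module
    · match_scalars <;> field_simp <;> ring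
  have iso : ∀ (Z : Submodule F (Fin n → F)) (s : F), s * s = 1 →
      (∀ x ∈ Z, ap a x = s • x) → ∀ x ∈ Z, ∀ y ∈ Z, f₁ x y = 0 := by
    intro Z s hss hZ x hx y hy
    have := ha x y
    rw [hZ x hx, hZ y hy, hs.bilinear.smul_left, hs.bilinear.smul_right, ← mul_assoc, hss,
      one_mul] at this
    exact (mul_eq_zero.mp (show (2 : F) * f₁ x y = 0 by linear_combination this)).resolve_left h2
  have k1 := two_mul_finrank_le hs.bilinear (fun v hv => (hs.nondegenerate v hv).2) X
    (iso X 1 (one_mul 1) fun x hx => by rw [one_smul]; exact (hXm x).mp hx)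
  have k2 := two_mul_finrank_le hs.bilinear (fun v hv => (hs.nondegenerate v hv).2) Y
    (iso Y (-1) (by ring) fun x hx => by rw [neg_one_smul]; exact (hYm x).mp hx)
  have k3 := Submodule.finrank_add_eq_of_isCompl hXY
  rw [Module.finrank_fintype_fun_eq_card] at k3
  obtain ⟨φ⟩ : Nonempty (X ≃ₗ[F] Y) := ⟨LinearEquiv.ofFinrankEq X Y (by omega)⟩
  set E := Submodule.prodEquivOfIsCompl X Y hXY
  refine ⟨E.symm.trans (((φ.prodCongr φ.symm).trans (LinearEquiv.prodComm F Y X)).trans E),
    fun z => ?_⟩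
  obtain ⟨⟨p, q⟩, rfl⟩ := E.surjective z
  have hz : ∀ (p : X) (q : Y), E (p, q) = (p : Fin n → F) + q := fun p q => by simp [E]
  have he : ap a (E (p, q)) = E (p, -q) := by
    rw [hz, hz, ap_add, (hXm _).mp p.2, (hYm _).mp q.2, Submodule.coe_neg]
  rw [he]
  simp only [LinearEquiv.trans_apply, LinearEquiv.symm_apply_apply]
  simp only [LinearEquiv.prodCongr_apply, LinearEquiv.prodComm_apply, Prod.swap_prod_mk, hz, map_neg,
    Submodule.coe_neg]
  rw [ap_add, (hXm _).mp (φ.symm q).2, (hYm _).mp (φ p).2]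
  abel

variable (hT : Data f e P f₁ f₂)
include hT

lemma card_eq : Fintype.card ι = n * d := by
  rw [Fintype.card_congr e, Fintype.card_prod, Fintype.card_fin, Fintype.card_fin]

/-- A factorwise involution with an anticommuting map on the first factor has eigenspaces of the
same dimension. -/
lemma two_mul_negSpace_of_anticomm {a : GL (Fin n) F} {b : GL (Fin d) F}
    (hy : kron e P a b * kron e P a b = 1) {c : (Fin n → F) ≃ₗ[F] (Fin n → F)}
    (hc : ∀ x, c (ap a x) = -ap a (c x)) :
    2 * Module.finrank F (negSpace (kron e P a b)) = n * d := by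
  set y := kron e P a b with hydef
  set C := kron e P (ofEquiv c) (1 : GL (Fin d) F) with hC
  have hq : ∀ x, ap (C * y * C⁻¹) x = -ap y x := by
    intro x
    obtain ⟨z, rfl⟩ : ∃ z, ap C z = x := ⟨_, ap_ap_inv C x⟩
    rw [ap_mul, ap_mul, ap_inv_ap]
    exact LinearMap.congr_fun (ext_pt e P (f := (apEquiv C).toLinearMap ∘ₗ (apEquiv y).toLinearMap)
      (g := -((apEquiv y).toLinearMap ∘ₗ (apEquiv C).toLinearMap)) fun p q => by
        simp only [hC, hydef, LinearMap.comp_apply, LinearMap.neg_apply, LinearEquiv.coe_coe,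
          apEquiv_apply, ap_kron, ap_one, ap_ofEquiv, hc]
        rw [← neg_one_smul F (ap a (c p)), pt_smul_left, neg_one_smul]) z
  have h1 := finrank_negSpace_neg hT.two hy hq
  rw [finrank_negSpace_conj, hT.card_eq] at h1
  omega

/-- A factorwise involution is a product of involutory isometries unless its eigenspaces have the
same dimension and no vector of non-zero value of the second factor is an eigenvector. -/
theorem involution_split [Finite F] {y : GL ι F}
    (hy : y ∈ Cfsg.Geo.tensorProductSubgroup n d e P) (hyI : y ∈ isom f) (hy2 : y * y = 1)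
    (hne : 2 * Module.finrank F (negSpace y) ≠ n * d) :
    ∃ a ∈ isom f₁, ∃ b ∈ isom f₂, a * a = 1 ∧ b * b = 1 ∧ y = kron e P a b := by
  obtain ⟨a, b, μ, hμ, rfl, ha, hb⟩ := hT.factor hy hyI
  have h2 := hT.two
  obtain ⟨v, hv⟩ := hT.exists_aniso
  have hv0 : v ≠ 0 := fun h => hv (by rw [h, hT.symm₂.zero_left])
  obtain ⟨u₀, hu₀⟩ := hT.exists_nonzero
  have hpp : ∀ x z, pt e P (ap a (ap a x)) (ap b (ap b z)) = pt e P x z := fun x z => by
    rw [← ap_kron, ← ap_kron, ← ap_mul, hy2, ap_one]
  obtain ⟨φ, -, hφ⟩ := exists_functional_eq_one (U := ⊥) (x := ap a (ap a u₀))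
    (by simpa using ap_ne_zero a (ap_ne_zero a hu₀))
  set t' := φ u₀
  have hbt : ∀ z, ap b (ap b z) = t' • z := fun z => by
    have := congrArg (conr e P φ) (hpp u₀ z)
    rwa [conr_pt, conr_pt, hφ, one_smul] at this
  have ht' : t' ≠ 0 := fun h => ap_ne_zero b (ap_ne_zero b hv0) (by rw [hbt, h, zero_smul])
  have hat : ∀ x, ap a (ap a x) = t'⁻¹ • x := fun x => by
    have := hpp x v
    rw [hbt, pt_smul_right, ← pt_smul_left] at this
    exact (eq_inv_smul_iff₀ ht').mpr (pt_inj_left e P hv0 this)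
  obtain ⟨s, hs⟩ : ∃ s, s * s = t'⁻¹ := by
    by_contra hc
    push Not at hc
    obtain ⟨c, hc'⟩ := exists_anticomm_of_nonsquare hat hc
    exact hne (hT.two_mul_negSpace_of_anticomm hy2 hc')
  have hs0 : s ≠ 0 := fun h => ht' (inv_eq_zero.mp (by rw [← hs, h, zero_mul]))
  set a' : GL (Fin n) F :=
    ofEquiv ((apEquiv a).trans (LinearEquiv.smulOfNeZero F _ s⁻¹ (inv_ne_zero hs0))) with ha'
  set b' : GL (Fin d) F :=
    ofEquiv ((apEquiv b).trans (LinearEquiv.smulOfNeZero F _ s hs0)) with hb'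
  have apa : ∀ x, ap a' x = s⁻¹ • ap a x := fun x => by rw [ha', ap_ofEquiv]; rfl
  have apb : ∀ z, ap b' z = s • ap b z := fun z => by rw [hb', ap_ofEquiv]; rfl
  have hyab : kron e P a b = kron e P a' b' := gl_ext_pt e P fun x z => by
    rw [ap_kron, ap_kron, apa, apb, pt_smul_left, pt_smul_right, smul_smul, inv_mul_cancel₀ hs0,
      one_smul]
  have haa : ∀ x, ap a' (ap a' x) = x := fun x => by
    rw [apa, apa, ap_smul, hat, smul_smul, smul_smul, ← hs]
    field_simp
    rw [one_smul]
  have hbb : ∀ z, ap b' (ap b' z) = z := fun z => by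
    rw [apb, apb, ap_smul, hbt, smul_smul, smul_smul]
    rw [show s * s * t' = 1 by rw [hs, inv_mul_cancel₀ ht'], one_smul]
  set ν := s⁻¹ * s⁻¹ * μ with hν
  have ha'' : ∀ x x', f₁ (ap a' x) (ap a' x') = ν * f₁ x x' := fun x x' => by
    rw [apa, apa, hT.symp₁.bilinear.smul_left, hT.symp₁.bilinear.smul_right, ha, hν]
    ring
  have hb'' : ∀ z z', f₂ (ap b' z) (ap b' z') = ν⁻¹ * f₂ z z' := fun z z' => by
    rw [apb, apb, hT.symm₂.smul_left, hT.symm₂.smul_right, hb, hν]
    field_simp
  obtain ⟨u₁, hu₁⟩ := (hT.symp₁.nondegenerate u₀ hu₀).2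
  have hνν : ν * ν = 1 := by
    have := ha'' (ap a' u₀) (ap a' u₁)
    rw [haa, haa, ha'', ← mul_assoc] at this
    exact (mul_right_cancel₀ hu₁ ((one_mul _).trans this)).symm
  rcases mul_self_eq_one_iff.mp hνν with h1 | h1
  · exact ⟨a', mem_isom_iff.mpr fun x x' => by rw [ha'', h1, one_mul], b',
      mem_isom_iff.mpr fun z z' => by rw [hb'', h1, inv_one, one_mul],
      gl_ext fun x => by rw [ap_mul, haa, ap_one], gl_ext fun z => by rw [ap_mul, hbb, ap_one],
      hyab⟩
  · obtain ⟨c, hc⟩ := exists_anticomm_of_anti hT.symp₁ h2 haa fun x x' => by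
      rw [ha'', h1, neg_one_mul]
    refine absurd ?_ hne
    rw [hyab] at hy2 ⊢
    exact hT.two_mul_negSpace_of_anticomm hy2 hc

omit hT in
/-- The map negating the plane of `u, p`. -/
def plMap (hT : Data f e P f₁ f₂) (u p : Fin n → F) : (Fin n → F) →ₗ[F] (Fin n → F) :=
  LinearMap.id - (2 : F) • ((Symp.fl hT.symp₁ p).smulRight u) +
    (2 : F) • ((Symp.fl hT.symp₁ u).smulRight p)

lemma plMap_apply (u p x : Fin n → F) :
    hT.plMap u p x = x - (2 * f₁ x p) • u + (2 * f₁ x u) • p := by
  simp [plMap, smul_smul]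

lemma plMap_plMap {u p : Fin n → F} (hup : f₁ u p = 1) (x : Fin n → F) :
    hT.plMap u p (hT.plMap u p x) = x := by
  have hpu : f₁ p u = -1 := by rw [hT.symp₁.skew, hup]
  simp only [hT.plMap_apply, hT.symp₁.bilinear.add_left, Symp.sub_left hT.symp₁,
    hT.symp₁.bilinear.smul_left, hT.symp₁.alternating, hup, hpu]
  module

omit hT in
/-- The involution negating the plane of `u, p`. -/
noncomputable def pl (hT : Data f e P f₁ f₂) {u p : Fin n → F} (hup : f₁ u p = 1) : GL (Fin n) F :=
  ofEquiv (LinearEquiv.ofLinearMap (hT.plMap u p) (hT.plMap u p)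
    (LinearMap.ext (hT.plMap_plMap hup)) (LinearMap.ext (hT.plMap_plMap hup)))

lemma ap_pl {u p : Fin n → F} (hup : f₁ u p = 1) (x : Fin n → F) :
    ap (hT.pl hup) x = x - (2 * f₁ x p) • u + (2 * f₁ x u) • p := by
  rw [pl, ap_ofEquiv, ← hT.plMap_apply]; rfl

lemma pl_mem {u p : Fin n → F} (hup : f₁ u p = 1) : hT.pl hup ∈ isom f₁ := by
  have hpu : f₁ p u = -1 := by rw [hT.symp₁.skew, hup]
  refine mem_isom_iff.mpr fun x y => ?_
  simp only [hT.ap_pl, hT.symp₁.bilinear.add_left, hT.symp₁.bilinear.add_right,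
    Symp.sub_left hT.symp₁, Symp.sub_right hT.symp₁, hT.symp₁.bilinear.smul_left,
    hT.symp₁.bilinear.smul_right, hT.symp₁.alternating, hup, hpu, hT.symp₁.skew u y,
    hT.symp₁.skew p y]
  ring

lemma pl_mul_self {u p : Fin n → F} (hup : f₁ u p = 1) : hT.pl hup * hT.pl hup = 1 :=
  gl_ext fun x => by
    rw [ap_mul, ap_one, pl, ap_ofEquiv, ap_ofEquiv]
    exact hT.plMap_plMap hup x

lemma ap_pl_left {u p : Fin n → F} (hup : f₁ u p = 1) : ap (hT.pl hup) u = -u := by
  rw [hT.ap_pl, hup, hT.symp₁.alternating]; module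

lemma ap_pl_fix {u p w : Fin n → F} (hup : f₁ u p = 1) (hwu : f₁ w u = 0) (hwp : f₁ w p = 0) :
    ap (hT.pl hup) w = w := by
  rw [hT.ap_pl, hwu, hwp]; module

lemma exists_perp_plane (u p : Fin n → F) : ∃ w, w ≠ 0 ∧ f₁ w u = 0 ∧ f₁ w p = 0 := by
  obtain ⟨w, hw, hw0⟩ := Submodule.exists_mem_ne_zero_of_ne_bot
    (LinearMap.ker_ne_bot_of_finrank_lt (f := (Symp.fl hT.symp₁ u).prod (Symp.fl hT.symp₁ p))
      (by have := hT.four₁; simp; omega))
  simp at hw
  exact ⟨w, hw0, hw.1, hw.2⟩

lemma finrank_negSpace_pl {u p : Fin n → F} (hup : f₁ u p = 1) :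
    Module.finrank F (negSpace (kron e P (hT.pl hup) (1 : GL (Fin d) F))) = 2 * d := by
  have hpu : f₁ p u = -1 := by rw [hT.symp₁.skew, hup]
  have h2 := hT.two
  let S : (Fin d → F) × (Fin d → F) →ₗ[F] (ι → F) := (ptr e P u).coprod (ptr e P p)
  have hS : Function.Injective S := (injective_iff_map_eq_zero _).mpr fun z hz => by
    have e1 := congrArg (hT.dd p) hz
    have e2 := congrArg (hT.dd u) hz
    simp only [S, LinearMap.coprod_apply, ptr_apply, map_add, dd_pt, hup, hpu, map_zero,
      hT.symp₁.alternating, one_smul, zero_smul, add_zero, zero_add, neg_one_smul,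
      neg_eq_zero] at e1 e2
    exact Prod.ext e1 e2
  have : negSpace (kron e P (hT.pl hup) (1 : GL (Fin d) F)) = LinearMap.range S := by
    have hap : ∀ x, ap (kron e P (hT.pl hup) (1 : GL (Fin d) F)) x =
        x - (2 : F) • pt e P u (hT.dd p x) + (2 : F) • pt e P p (hT.dd u x) := fun x => by
      have h := LinearMap.congr_fun (ext_pt e P
        (f := (apEquiv (kron e P (hT.pl hup) (1 : GL (Fin d) F))).toLinearMap)
        (g := LinearMap.id - (2 : F) • (ptr e P u).comp (hT.dd p) +
          (2 : F) • (ptr e P p).comp (hT.dd u)) fun a z => by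
        simp [hT.ap_pl, pt_add_left, pt_sub_left, pt_smul_left, smul_smul]) x
      simp only [LinearMap.add_apply, LinearMap.sub_apply, LinearMap.smul_apply] at h
      exact h
    ext x
    rw [mem_negSpace, hap]
    refine ⟨fun h => ⟨(hT.dd p x, -hT.dd u x), ?_⟩, ?_⟩
    · simp only [S, LinearMap.coprod_apply, ptr_apply, pt_neg_right]
      apply smul_right_injective (ι → F) h2
      show (2 : F) • _ = (2 : F) • x
      linear_combination (norm := module) -h
    · rintro ⟨z, rfl⟩
      simp only [S, LinearMap.coprod_apply, ptr_apply, map_add, dd_pt, hup, hpu,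
        hT.symp₁.alternating, one_smul, zero_smul, add_zero, zero_add, neg_one_smul, pt_neg_right]
      module
  rw [this, LinearMap.finrank_range_of_inj hS, Module.finrank_prod, Module.finrank_fin_fun]
  omega

lemma finrank_negSpace_R {v : Fin d → F} (hv : f₂ v v ≠ 0) :
    Module.finrank F (negSpace (hT.R v)) = n := by
  have h2 := hT.two
  have hv0 : v ≠ 0 := fun h => hv (by rw [h, hT.symm₂.zero_left])
  have : negSpace (hT.R v) = LinearMap.range (ptl e P v) := by
    ext x
    rw [mem_negSpace]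
    refine ⟨fun h => ⟨(1 / f₂ v v) • hT.cc v x, ?_⟩, ?_⟩
    · rw [ptl_apply, pt_smul_left]
      rw [hT.ap_R] at h
      apply smul_right_injective (ι → F) h2
      show (2 : F) • _ = (2 : F) • x
      rw [smul_smul, mul_one_div]
      linear_combination (norm := module) -h
    · rintro ⟨z, rfl⟩
      simp only [ptl_apply, R, ap_kron, ap_one, hT.ap_r_self hv, pt_neg_right]
  rw [this, LinearMap.finrank_range_of_inj ((injective_iff_map_eq_zero _).mpr fun z hz => by
    by_contra h0
    exact pt_ne_zero e P h0 hv0 hz), Module.finrank_fin_fun]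

end CfsgLib.Geometric.SympOrth.Data
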