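import Cfsg.Agent.Lib.CoprimeAction.Abelian
import Cfsg.Agent.Lib.Geometric.SympOrth.Blocks

/-!
The kernel of the centraliser of two mixed products on their orthogonal is generated, by coprime
action of a group of unipotents of the first factor, by centralisers lying in the stabiliser.
Consequently an overgroup without transvections at pure tensors with singular second factor is the
stabiliser.
-/

set_option autoImplicit false
set_option linter.unusedSectionVars false

namespace CfsgLib.Geometric.SympOrth.Data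

open Matrix Tensor OrthTensor

variable {ι : Type} [Fintype ι] [DecidableEq ι] {F : Type*} [Field F]
variable {f : (ι → F) → (ι → F) → F} {n d : ℕ} {e : ι ≃ Fin n × Fin d} {P : GL ι F}
  {f₁ : (Fin n → F) → (Fin n → F) → F} {f₂ : (Fin d → F) → (Fin d → F) → F}

section
variable (hT : Data f e P f₁ f₂)
include hT

lemma T_comm {u v : Fin n → F} (h : f₁ u v = 0) (i j : F) :
    Symp.T hT.symp₁ u i * Symp.T hT.symp₁ v j = Symp.T hT.symp₁ v j * Symp.T hT.symp₁ u i :=
  gl_ext fun x => by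
    rw [hT.ap_TT u v i j h, hT.ap_TT v u j i ((Symp.eq_zero_comm hT.symp₁).mp h)]
    abel

omit hT in
/-- The products of transvections at two orthogonal centres, as operators on the whole space. -/
noncomputable def uniHom (hT : Data f e P f₁ f₂) {u v : Fin n → F} (h : f₁ u v = 0) :
    Multiplicative (F × F) →* GL ι F where
  toFun x := kron e P (Symp.T hT.symp₁ u x.toAdd.1 * Symp.T hT.symp₁ v x.toAdd.2)
    (1 : GL (Fin d) F)
  map_one' := by simp [Symp.T_zero_right, kron_one]
  map_mul' x y := by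
    rw [kron_mul, one_mul]
    congr 1
    rw [toAdd_mul, Prod.fst_add, Prod.snd_add, ← Symp.T_mul, ← Symp.T_mul]
    have := hT.T_comm h y.toAdd.1 x.toAdd.2
    simp only [mul_assoc]
    rw [← mul_assoc (Symp.T hT.symp₁ u y.toAdd.1), this]
    simp only [mul_assoc]

/-- A vector of the orthogonal of a plane is centred at a transvection commuting with the plane
involution. -/
lemma T_comm_pl {u p : Fin n → F} (hup : f₁ u p = 1) {z : Fin n → F}
    (hz : ap (hT.pl hup) z = z ∨ ap (hT.pl hup) z = -z) (i : F) :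
    Symp.T hT.symp₁ z i * hT.pl hup = hT.pl hup * Symp.T hT.symp₁ z i := by
  have h1 := Symp.conj_T hT.symp₁ (hT.pl_mem hup) z i
  have h2 : Symp.T hT.symp₁ (ap (hT.pl hup) z) i = Symp.T hT.symp₁ z i := by
    rcases hz with hz | hz
    · rw [hz]
    · rw [hz, ← neg_one_smul F z, Symp.T_smul, show (-1 : F) * -1 * i = i by ring]
  rw [h2] at h1
  exact (mul_inv_eq_iff_eq_mul.mp h1).symm

end

variable [Finite F] (hT : Data f e P f₁ f₂) {M : Subgroup (GL ι F)} (hM : hT.Small M)
include hT hM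

local notation "H₀" => Cfsg.Geo.tensorProductSubgroup n d e P

set_option maxHeartbeats 1000000 in
/-- The elements of a two-element block fixing a slice of the second factor orthogonal to it and
commuting with the reflections orthogonal to it lie in the stabiliser. -/
theorem kernel_le {u p : Fin n → F} (hup : f₁ u p = 1) {w t q : Fin d → F} (hw : f₂ w w ≠ 0)
    (ht : f₂ t t ≠ 0) (hwt : f₂ w t = 0) (hqw : f₂ q w = 0) (hqt : f₂ q t = 0)
    (hq : f₂ q q ≠ 0) {k : GL ι F} (hk : k ∈ hT.block hM hup {w, t})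
    (hkR : ∀ v, f₂ v v ≠ 0 → Perp f₂ {w, t} v → k * hT.R v = hT.R v * k)
    (hkq : ∀ a, ap k (pt e P a q) = pt e P a q) : k ∈ H₀ := by
  classical
  letI := Fintype.ofFinite F
  have hg₂ := hT.symm₂
  set U := Perp f₂ ({w, t} : Set (Fin d → F)) with hU
  have hmemU : ∀ v, U v ↔ f₂ v w = 0 ∧ f₂ v t = 0 := fun v => by simp [hU, Perp]
  let Fx : Subgroup (GL ι F) :=
    { carrier := {g | ∀ a, ap g (pt e P a q) = pt e P a q}
      mul_mem' := fun {g g'} hg hg' a => by
        simp only [Set.mem_ofPred_eq] at hg hg'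
        rw [ap_mul, hg', hg]
      one_mem' := fun a => ap_one _
      inv_mem' := fun {g} hg a => by
        simp only [Set.mem_ofPred_eq] at hg
        conv_lhs => rw [← hg a, ap_inv_ap] }
  set K := (hT.block hM hup {w, t} ⊓ Subgroup.centralizer (hT.R '' {v | f₂ v v ≠ 0 ∧ U v})) ⊓ Fx
    with hK
  have hKm : ∀ g, g ∈ K ↔ (g ∈ hT.block hM hup {w, t} ∧
      ∀ v, f₂ v v ≠ 0 → U v → g * hT.R v = hT.R v * g) ∧
        ∀ a, ap g (pt e P a q) = pt e P a q := by
    intro g
    rw [hK, Subgroup.mem_inf, Subgroup.mem_inf, Subgroup.mem_centralizer_iff]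
    refine and_congr_left fun _ => and_congr_right fun _ => ?_
    exact ⟨fun h v hv hvU => (h _ (Set.mem_image_of_mem _ ⟨hv, hvU⟩)).symm, by
      rintro h _ ⟨v, ⟨hv, hvU⟩, rfl⟩
      exact (h v hv hvU).symm⟩
  obtain ⟨z, hz, hzu, hzp⟩ := hT.exists_perp_plane u p
  have huz : f₁ u z = 0 := (Symp.eq_zero_comm hT.symp₁).mp hzu
  have hu0 : u ≠ 0 := fun h0 => one_ne_zero (α := F) (by rw [← hup, h0, Symp.zero_left hT.symp₁])
  have hzspan : z ∉ Submodule.span F {u} := fun hm => by
    obtain ⟨c, rfl⟩ := Submodule.mem_span_singleton.mp hm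
    rw [hT.symp₁.bilinear.smul_left, hup, mul_one] at hzp
    rw [hzp, zero_smul] at hz
    exact hz rfl
  set φ := hT.uniHom huz with hφ
  set A := φ.range with hA
  have hφx : ∀ x, φ x = kron e P (Symp.T hT.symp₁ u x.toAdd.1 * Symp.T hT.symp₁ z x.toAdd.2)
      (1 : GL (Fin d) F) := fun x => rfl
  have hinj : Function.Injective φ := (injective_iff_map_eq_one φ).mpr fun x hx => by
    by_contra hne
    refine hT.TT_ne_one huz hu0 hzspan (i := x.toAdd.1) (j := x.toAdd.2) ?_
      (hT.kron_left_inj (by rw [← hφx, hx, kron_one]))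
    by_contra h0
    push Not at h0
    exact hne (Multiplicative.toAdd.injective (Prod.ext h0.1 h0.2))
  have hcomm : ∀ x : F × F, (Symp.T hT.symp₁ u x.1 * Symp.T hT.symp₁ z x.2) * hT.pl hup =
      hT.pl hup * (Symp.T hT.symp₁ u x.1 * Symp.T hT.symp₁ z x.2) := fun (x : F × F) =>
    (Commute.mul_left (hT.T_comm_pl hup (Or.inr (hT.ap_pl_left hup)) x.1)
      (hT.T_comm_pl hup (Or.inl (hT.ap_pl_fix hup hzu hzp)) x.2))
  have hAB : ∀ x, φ x ∈ hT.block hM hup {w, t} := fun x => (hT.mem_block hM).mpr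
    ⟨hT.kron_mem_M hM (mul_mem (Symp.T_mem_isom hT.symp₁ u _) (Symp.T_mem_isom hT.symp₁ z _))
      (one_mem _), fun s _ => by rw [hφx]; exact hT.left_comm_zz hup (hcomm _) s⟩
  haveI hAc : IsMulCommutative A := ⟨⟨by
    rintro ⟨_, x, rfl⟩ ⟨_, y, rfl⟩
    exact Subtype.ext (by simp only [Subgroup.coe_mul]; rw [← map_mul, mul_comm, map_mul])⟩⟩
  have hAnc : ¬ IsCyclic A := fun hc => by
    haveI := hc
    haveI : IsCyclic (Multiplicative (F × F)) :=
      isCyclic_of_surjective (MonoidHom.ofInjective hinj).symm.toMonoidHom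
        (MonoidHom.ofInjective hinj).symm.surjective
    obtain ⟨g, hg⟩ := IsCyclic.exists_zpow_surjective (G := Multiplicative (F × F))
    obtain ⟨i, hi⟩ := hg (Multiplicative.ofAdd (1, 0))
    obtain ⟨j, hj⟩ := hg (Multiplicative.ofAdd (0, 1))
    have hi' := congrArg Multiplicative.toAdd hi
    have hj' := congrArg Multiplicative.toAdd hj
    simp only [toAdd_zpow, toAdd_ofAdd, Prod.ext_iff, Prod.smul_fst, Prod.smul_snd,
      zsmul_eq_mul, Prod.fst_mul, Prod.snd_mul, Prod.fst_intCast, Prod.snd_intCast] at hi' hj'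
    have e1 : g.toAdd.2 = 0 :=
      (mul_eq_zero.mp hi'.2).resolve_left fun h => one_ne_zero (α := F) (by
        rw [← hi'.1, h, zero_mul])
    exact one_ne_zero (α := F) (by rw [← hj'.2, e1, mul_zero])
  have hnorm : A ≤ Subgroup.normalizer (K : Set (GL ι F)) := by
    have hfwd : ∀ x, ∀ g ∈ K, φ x * g * (φ x)⁻¹ ∈ K := by
      intro x g hg
      obtain ⟨⟨hgB, hgR⟩, hgF⟩ := (hKm g).mp hg
      refine (hKm _).mpr ⟨⟨mul_mem (mul_mem (hAB x) hgB) (inv_mem (hAB x)), fun v hv hvU => ?_⟩,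
        fun a => ?_⟩
      · have hc : hT.R v * φ x = φ x * hT.R v := by rw [hφx]; exact (hT.left_comm_R _ v).symm
        exact (comm_of_conj (z := hT.R v) hc.symm (hgR v hv hvU))
      · rw [hφx, kron_inv, ap_mul, ap_mul, ap_kron, inv_one, ap_one, hgF, ap_kron, ap_one,
          ap_ap_inv]
    rintro _ ⟨x, rfl⟩
    refine Subgroup.mem_normalizer_iff.mpr fun g => ⟨hfwd x g, fun hg => ?_⟩
    have := hfwd x⁻¹ _ hg
    rwa [map_inv, inv_inv, show (φ x)⁻¹ * (φ x * g * (φ x)⁻¹) * φ x = g by group] at this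
  have hquad : ∀ x, φ x ≠ 1 → IsQuad f₁ (Symp.T hT.symp₁ u x.toAdd.1 * Symp.T hT.symp₁ z x.toAdd.2) :=
    fun x hx => hT.isQuad_TT huz fun h1 => hx (by rw [hφx, h1, kron_one])
  have hCle : ∀ a ∈ A, a ≠ 1 → K ⊓ Subgroup.centralizer ({a} : Set (GL ι F)) ≤ H₀ := by
    rintro _ ⟨x, rfl⟩ hne g ⟨hg, hgc⟩
    refine hT.mem_of_comm_quad hM (hquad x hne) ((hT.mem_block hM).mp ((hKm g).mp hg).1.1).1 ?_
    rw [← hφx]
    exact (Subgroup.mem_centralizer_singleton_iff.mp hgc)
  -- the members of the kernel in the stabiliser are involutions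
  have hsq : ∀ g ∈ K, g ∈ H₀ → g * g = 1 := by
    intro g hg hgH
    obtain ⟨⟨hgB, hgR⟩, hgF⟩ := (hKm g).mp hg
    obtain ⟨hgM, hgz⟩ := (hT.mem_block hM).mp hgB
    obtain ⟨a, b, μ, -, hab, -, -⟩ := hT.factor hgH (hM.le_isom hgM)
    have hq0 : q ≠ 0 := fun h0 => hq (by rw [h0, hg₂.zero_left])
    obtain ⟨χ, -, hχ⟩ := exists_functional_eq_one (U := ⊥) (x := ap b q)
      (by simpa using ap_ne_zero b hq0)
    have hac : ∀ c, ap a c = χ q • c := fun c => by
      have := congrArg (con e P χ) (hgF c)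
      rwa [hab, ap_kron, con_pt, con_pt, hχ, one_smul] at this
    have hl : χ q ≠ 0 := fun h0 => by
      obtain ⟨c, hc⟩ := hT.exists_nonzero
      exact ap_ne_zero a hc (by rw [hac, h0, zero_smul])
    set b' : GL (Fin d) F :=
      ofEquiv ((apEquiv b).trans (LinearEquiv.smulOfNeZero F _ (χ q) hl)) with hb'
    have hgb : g = kron e P (1 : GL (Fin n) F) b' := gl_ext_pt e P fun x y => by
      rw [hab, ap_kron, ap_kron, hac, ap_one, hb', ap_ofEquiv, pt_smul_left]
      exact (pt_smul_right e P _ _ _).symm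
    obtain ⟨a₀, ha₀⟩ := hT.exists_nonzero
    obtain ⟨a₁, ha₁⟩ := (hT.symp₁.nondegenerate a₀ ha₀).2
    have hbI : ∀ y y', f₂ (ap b' y) (ap b' y') = f₂ y y' := fun y y' => by
      have h1 := mem_isom_iff.mp (hM.le_isom hgM) (pt e P a₀ y) (pt e P a₁ y')
      rw [hgb, ap_kron, ap_kron, ap_one, ap_one, hT.form, hT.form] at h1
      exact mul_left_cancel₀ ha₁ h1
    have base : ∀ v, f₂ v v ≠ 0 → b' * hT.r v = hT.r v * b' → ap b' (ap b' v) = v := by
      intro v hv hc
      obtain ⟨c, hcv⟩ := Submodule.mem_span_singleton.mp (hT.eigen_r (v := v) (x := ap b' v) (by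
        rw [← ap_mul, ← hc, ap_mul, hT.ap_r_self hv, ap_neg]))
      have hcc : c * c = 1 := mul_right_cancel₀ hv (by
        have := hbI v v
        rw [← hcv, hg₂.smul_left, hg₂.smul_right] at this
        linear_combination this)
      rw [← hcv, ap_smul, ← hcv, smul_smul, hcc, one_smul]
    have hzc : ∀ s ∈ ({w, t} : Set (Fin d → F)), b' * hT.r s = hT.r s * b' := fun s hs => by
      have h1 := hgz s hs
      rw [hgb, zz, kron_mul, kron_mul, one_mul, mul_one] at h1
      exact hT.kron_right_inj h1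
    have hall : ∀ y, ap b' (ap b' y) = y := by
      intro y
      set y₀ := y - (f₂ y w / f₂ w w) • w - (f₂ y t / f₂ t t) • t with hy₀
      have hy₀U : U y₀ := (hmemU _).mpr ⟨by
        rw [hy₀, hg₂.sub_left, hg₂.sub_left, hg₂.smul_left, hg₂.smul_left,
          div_mul_cancel₀ _ hw, hg₂.symm t w, hwt]; ring, by
        rw [hy₀, hg₂.sub_left, hg₂.sub_left, hg₂.smul_left, hg₂.smul_left,
          div_mul_cancel₀ _ ht, hwt]; ring⟩
      have h0 : ap b' (ap b' y₀) = y₀ := hT.perp_induction (S := {w, t})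
        (Q := fun v => ap b' (ap b' v) = v) ⟨q, (hmemU q).mpr ⟨hqw, hqt⟩, hq⟩
        (fun a c ha hc => by rw [ap_sub, ap_sub, ha, hc])
        (fun v hvU hv => base v hv (by
          have h1 := hgR v hv hvU
          rw [hgb, R, kron_mul, kron_mul, one_mul] at h1
          exact hT.kron_right_inj h1)) hy₀U
      rw [show y = y₀ + (f₂ y w / f₂ w w) • w + (f₂ y t / f₂ t t) • t by rw [hy₀]; abel, ap_add,
        ap_add, ap_add, ap_add, ap_smul, ap_smul, ap_smul, ap_smul, h0,
        base w hw (hzc w (by simp)), base t ht (hzc t (by simp))]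
    rw [hgb, kron_mul, one_mul, show b' * b' = 1 from gl_ext fun y => by rw [ap_mul, hall, ap_one],
      kron_one]
  -- coprimality
  obtain ⟨ℓ, hℓ⟩ := CharP.exists F
  obtain ⟨m, hℓp, hcard⟩ := FiniteField.card F ℓ
  haveI := Fact.mk hℓp
  have hℓ2 : ℓ ≠ 2 := fun h => hT.two (by
    have h' := CharP.cast_eq_zero F ℓ
    rw [h] at h'
    exact_mod_cast h')
  have hcardA : Nat.card A = ℓ ^ ((m : ℕ) + m) := by
    rw [← Nat.card_congr (MonoidHom.ofInjective hinj).toEquiv,
      Nat.card_congr Multiplicative.toAdd, Nat.card_prod, Nat.card_eq_fintype_card, hcard, pow_add]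
  have hcop : (Nat.card A).Coprime (Nat.card K) := by
    rw [hcardA]
    refine Nat.Coprime.pow_left _ ((hℓp.coprime_iff_not_dvd).mpr fun hdvd => ?_)
    let α : GL ι F := φ (Multiplicative.ofAdd (1, 0))
    have hαA : α ∈ A := ⟨_, rfl⟩
    have hα1 : α ≠ 1 := fun h => by
      have h' := congrArg (fun x => (Multiplicative.toAdd x).1) (hinj (h.trans (map_one φ).symm))
      simp at h'
    let Z := Subgroup.zpowers α
    letI : MulAction Z K :=
      { smul := fun g x => ⟨(g : GL ι F) * x * (g : GL ι F)⁻¹,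
          (Subgroup.mem_normalizer_iff.mp
            (hnorm ((Subgroup.zpowers_le.mpr hαA) g.2)) x).mp x.2⟩
        one_smul := fun x => Subtype.ext (show (1 : GL ι F) * x * (1 : GL ι F)⁻¹ = x by group)
        mul_smul := fun g h x => Subtype.ext
          (show (g * h : GL ι F) * x * (g * h : GL ι F)⁻¹ =
            g * (h * x * (h : GL ι F)⁻¹) * (g : GL ι F)⁻¹ by group) }
    have hZp : IsPGroup ℓ Z := by
      have h1 : IsPGroup ℓ A := IsPGroup.of_card hcardA
      exact h1.to_le (Subgroup.zpowers_le.mpr hαA)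
    set C := K ⊓ Subgroup.centralizer ({α} : Set (GL ι F)) with hC
    have hfix : Nat.card (MulAction.fixedPoints Z K) = Nat.card C := by
      refine Nat.card_congr
        { toFun := fun x => ⟨(x.1 : GL ι F), x.1.2,
            Subgroup.mem_centralizer_singleton_iff.mpr (mul_inv_eq_iff_eq_mul.mp
              (congrArg Subtype.val (x.2 ⟨α, Subgroup.mem_zpowers α⟩))).symm⟩
          invFun := fun x => ⟨⟨x.1, x.2.1⟩, fun g => Subtype.ext ?_⟩
          left_inv := fun x => rfl
          right_inv := fun x => rfl }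
      show (g : GL ι F) * x.1 * (g : GL ι F)⁻¹ = x.1
      obtain ⟨i, hi⟩ := Subgroup.mem_zpowers_iff.mp g.2
      rw [← hi, mul_inv_eq_iff_eq_mul]
      exact ((Commute.zpow_right
        (Subgroup.mem_centralizer_singleton_iff.mp x.2.2) i)).eq.symm
    have h2grp : IsPGroup 2 C := fun x => ⟨1, Subtype.ext (by
      rw [pow_one, pow_two]
      exact hsq _ x.2.1 (hCle α hαA hα1 x.2))⟩
    obtain ⟨r, hr⟩ := h2grp.exists_card_eq
    have hmod := hZp.card_modEq_card_fixedPoints K
    rw [hfix, hr] at hmod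
    have h3 : ℓ ∣ 2 ^ r := Nat.modEq_zero_iff_dvd.mp
      (hmod.symm.trans (Nat.modEq_zero_iff_dvd.mpr hdvd))
    exact hℓ2 ((Nat.prime_dvd_prime_iff_eq hℓp Nat.prime_two).mp (hℓp.dvd_of_dvd_pow h3))
  exact CfsgLib.CoprimeAction.le_of_centralizers hAnc hnorm hcop hCle
    ((hKm k).mpr ⟨⟨hk, hkR⟩, hkq⟩)

/-- The centraliser of two orthogonal mixed products lies in the stabiliser. -/
theorem block_two_le {u p : Fin n → F} (hup : f₁ u p = 1) {w t : Fin d → F} (hw : f₂ w w ≠ 0)
    (ht : f₂ t t ≠ 0) (hwt : f₂ w t = 0) : hT.block hM hup {w, t} ≤ H₀ := by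
  have hg₂ := hT.symm₂
  have hS : ∀ s ∈ ({w, t} : Set (Fin d → F)), f₂ s s ≠ 0 := by simp [hw, ht]
  obtain ⟨q, hqw, hqt, hq⟩ := hT.exists_perp_aniso₂ hw ht hwt
  refine hT.block_le hM hup hS (fun v' hv' hv'S k hk hc => ?_) fun k hk hkR => ?_
  · obtain ⟨hkM, hkz⟩ := (hT.mem_block hM).mp hk
    have e1 := hg₂.eq_zero_comm.mp (hv'S w (by simp))
    have e2 := hg₂.eq_zero_comm.mp (hv'S t (by simp))
    exact hT.mem_of_comm_pl hM hup hkM
      (hT.comm_pl_of_three hup hw hwt e1 e2 (hkz w (by simp)) (hkz t (by simp)) hc)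
  obtain ⟨hkM, hkz⟩ := (hT.mem_block hM).mp hk
  have hqU : Perp f₂ ({w, t} : Set (Fin d → F)) q := by simp [Perp, hqw, hqt]
  have hq0 : q ≠ 0 := fun h0 => hq (by rw [h0, hg₂.zero_left])
  set Λ : (Fin n → F) →ₗ[F] (Fin n → F) :=
    (1 / f₂ q q) • (hT.cc q).comp ((apEquiv k).toLinearMap.comp (ptl e P q)) with hΛ
  have hkq : ∀ a, ap k (pt e P a q) = pt e P (Λ a) q := fun a => by
    have h1 := congrArg (fun g => ap g (pt e P a q)) (hkR q hq hqU)
    simp only [ap_mul] at h1
    rw [hT.ap_R q (ap k _), R, ap_kron, ap_one, hT.ap_r_self hq, pt_neg_right, ap_neg] at h1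
    simp only [hΛ, LinearMap.smul_apply, LinearMap.comp_apply, ptl_apply, LinearEquiv.coe_coe,
      apEquiv_apply, pt_smul_left]
    apply smul_right_injective (ι → F) hT.two
    show (2 : F) • _ = (2 : F) • _
    rw [smul_smul, mul_one_div]
    linear_combination (norm := module) -h1
  have hΛinj : Function.Injective Λ := (injective_iff_map_eq_zero _).mpr fun a ha => by
    by_contra h0
    refine ap_ne_zero k (pt_ne_zero e P h0 hq0) ?_
    rw [hkq, ha, pt_zero_left]
  set a₀ : GL (Fin n) F :=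
    ofEquiv (LinearEquiv.ofBijective Λ ⟨hΛinj, LinearMap.injective_iff_surjective.mp hΛinj⟩)
    with ha₀
  have hapa : ∀ a, ap a₀ a = Λ a := fun a => by rw [ha₀, ap_ofEquiv]; rfl
  have ha₀I : a₀ ∈ isom f₁ := mem_isom_iff.mpr fun a c => mul_right_cancel₀ hq (by
    rw [hapa, hapa, ← hT.form, ← hkq, ← hkq, mem_isom_iff.mp (hM.le_isom hkM), hT.form])
  have hpl : a₀ * hT.pl hup = hT.pl hup * a₀ := gl_ext fun a => by
    have h1 := congrArg (fun g => ap g (pt e P a q)) (hkz w (by simp))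
    simp only [ap_mul, zz, ap_kron, hT.ap_r_perp hqw, hkq] at h1
    rw [ap_mul, ap_mul, hapa, hapa]
    exact pt_inj_left e P hq0 h1
  set h := kron e P a₀ (1 : GL (Fin d) F) with hh
  have hhM : h ∈ M := hT.kron_mem_M hM ha₀I (one_mem _)
  have hhB : h ∈ hT.block hM hup {w, t} :=
    (hT.mem_block hM).mpr ⟨hhM, fun s _ => hT.left_comm_zz hup hpl s⟩
  refine hT.mem_of_mul_inv hM (k := h) (kron_mem e P _ _) (hT.kernel_le hM hup hw ht hwt hqw hqt hq
    (mul_mem (inv_mem hhB) hk) (fun v hv hvS => ?_) fun a => ?_)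
  · rw [hh, kron_inv, inv_one, mul_assoc, hkR v hv hvS, ← mul_assoc, hT.left_comm_R, mul_assoc]
  · rw [ap_mul, hkq, hh, kron_inv, inv_one, ap_kron, ap_one, ← hapa, ap_inv_ap]

/-- The centraliser of a mixed product lies in the stabiliser. -/
theorem block_one_le {u p : Fin n → F} (hup : f₁ u p = 1) {w : Fin d → F} (hw : f₂ w w ≠ 0) :
    hT.block hM hup {w} ≤ H₀ := by
  have hg₂ := hT.symm₂
  have hS : ∀ s ∈ ({w} : Set (Fin d → F)), f₂ s s ≠ 0 := by simp [hw]
  obtain ⟨q, hqw, hq⟩ := hT.exists_perp_aniso hw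
  refine hT.block_le hM hup hS (fun v' hv' hv'S k hk hc => ?_) fun k hk hkR => ?_
  · obtain ⟨hkM, hkz⟩ := (hT.mem_block hM).mp hk
    refine hT.block_two_le hM hup hw hv' (hg₂.eq_zero_comm.mp (hv'S w rfl))
      ((hT.mem_block hM).mpr ⟨hkM, ?_⟩)
    rintro s (rfl | rfl)
    · exact hkz s rfl
    · exact hc
  obtain ⟨hkM, hkz⟩ := (hT.mem_block hM).mp hk
  have hPerp : ∀ y, f₂ y w = 0 → Perp f₂ ({w} : Set (Fin d → F)) y := fun y hy => by
    simp [Perp, hy]
  -- the slices orthogonal to `w`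
  have hfix : ∀ y, f₂ y w = 0 → ∀ a,
      ap (hT.R w) (ap k (pt e P a y)) = ap k (pt e P a y) := by
    intro y hy
    refine hT.perp_induction (S := {w})
      (Q := fun y => ∀ a, ap (hT.R w) (ap k (pt e P a y)) = ap k (pt e P a y))
      ⟨q, hPerp q hqw, hq⟩ (fun x x' hx hx' a => by rw [pt_sub_right, ap_sub, ap_sub, hx, hx'])
      (fun v hvS hv a => ?_) (hPerp y hy)
    have h1 := congrArg (fun g => ap g (pt e P a v)) (hkR v hv hvS)
    simp only [ap_mul] at h1
    rw [hT.ap_R v (ap k _), R, ap_kron, ap_one, hT.ap_r_self hv, pt_neg_right, ap_neg] at h1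
    have h2 : (2 : F) • ap k (pt e P a v) =
        (2 : F) • pt e P ((1 / f₂ v v) • hT.cc v (ap k (pt e P a v))) v := by
      rw [pt_smul_left, smul_smul, mul_one_div]
      linear_combination (norm := module) -h1
    rw [smul_right_injective (ι → F) hT.two h2, R, ap_kron, ap_one, hT.ap_r_perp (hvS w rfl)]
  -- the slice of `w`
  have hneg : ∀ a, ap (hT.R w) (ap k (pt e P a w)) = -ap k (pt e P a w) := by
    intro a
    set x := ap k (pt e P a w) with hx
    have hperp : ∀ y, f₂ y w = 0 → hT.cc y x = 0 := fun y hy =>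
      hT.perp_induction (S := {w}) (Q := fun y => hT.cc y x = 0) ⟨q, hPerp q hqw, hq⟩
        (fun y y' h h' => hT.ext₁ fun c => by
          rw [← hT.f_pt, pt_sub_right, Symp.sub_right hT.symp, hT.f_pt, hT.f_pt, h, h', sub_self,
            Symp.zero_left hT.symp₁])
        (fun v hvS hv => by
          have h1 := congrArg (fun g => ap g (pt e P a w)) (hkR v hv hvS)
          simp only [ap_mul] at h1
          rw [hT.ap_R v (ap k _), R, ap_kron, ap_one,
            hT.ap_r_perp (hg₂.eq_zero_comm.mp (hvS w rfl)), ← hx] at h1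
          have h2 : (2 / f₂ v v) • pt e P (hT.cc v x) v = 0 := by
            linear_combination (norm := module) h1
          by_contra h0
          exact (smul_ne_zero (div_ne_zero hT.two hv)
            (pt_ne_zero e P h0 (fun hv0 => hv (by rw [hv0, hg₂.zero_left])))) h2)
        (hPerp y hy)
    by_contra hne
    obtain ⟨z, hz⟩ := (hT.symp.nondegenerate (ap (hT.R w) x + x) fun h0 =>
      hne (eq_neg_of_add_eq_zero_left h0)).2
    have hlin : (Symp.fl hT.symp).flip (ap (hT.R w) x + x) = 0 := by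
      refine ext_pt e P fun c y => ?_
      simp only [LinearMap.flip_apply, Symp.fl_apply, LinearMap.zero_apply]
      set y₀ := y - (f₂ y w / f₂ w w) • w with hy₀
      have hy₀w : f₂ y₀ w = 0 := by
        rw [hy₀, hg₂.sub_left, hg₂.smul_left, div_mul_cancel₀ _ hw, sub_self]
      rw [show y = y₀ + (f₂ y w / f₂ w w) • w by rw [hy₀]; abel, pt_add_right, pt_smul_right,
        hT.ap_R, hT.symp.bilinear.add_right, hT.symp.bilinear.smul_right]
      simp only [hT.symp.bilinear.add_left, Symp.sub_left hT.symp, hT.symp.bilinear.smul_left,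
        hT.form, hT.f_pt x, hperp y₀ hy₀w, hg₂.symm w y₀, hy₀w, Symp.zero_left hT.symp₁]
      field_simp
      ring
    exact hz (LinearMap.congr_fun hlin z)
  refine hT.mem_of_comm_pl hM hup hkM ?_
  have kR : k * hT.R w = hT.R w * k := by
    refine gl_ext_pt e P fun a y => ?_
    rw [ap_mul, ap_mul]
    have hy₀w : f₂ (y - (f₂ y w / f₂ w w) • w) w = 0 := by
      rw [hg₂.sub_left, hg₂.smul_left, div_mul_cancel₀ _ hw, sub_self]
    rw [show y = (y - (f₂ y w / f₂ w w) • w) + (f₂ y w / f₂ w w) • w by abel, pt_add_right,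
      pt_smul_right]
    simp only [ap_add, ap_smul, hfix _ hy₀w, hneg]
    simp only [R, ap_kron, ap_one, hT.ap_r_self hw, hT.ap_r_perp hy₀w, pt_neg_right, ap_neg]
  have hp : kron e P (hT.pl hup) (1 : GL (Fin d) F) = hT.zz hup w * hT.R w := by
    rw [zz, R, kron_mul, mul_one, hT.r_mul_self hw]
  rw [hp]
  exact (Commute.mul_right (hkz w rfl) kR).eq

/-- An overgroup without transvections at pure tensors with singular second factor is the
stabiliser. -/
theorem le_of_small : M ≤ H₀ := by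
  obtain ⟨u, hu⟩ := hT.exists_nonzero
  obtain ⟨p, -, hup⟩ := Symp.exists_perp_one hT.symp₁ (U := ⊥) (x := u) (by simpa using hu)
  have hS : ∀ s ∈ (∅ : Set (Fin d → F)), f₂ s s ≠ 0 := by simp
  refine hT.le_of_conj_R hM fun g hg v hv => ?_
  obtain ⟨v', -, -, heq⟩ := hT.conj_R_in hM hup hS (fun v' hv' _ k hk hc =>
    hT.block_one_le hM hup hv' ((hT.mem_block hM).mpr ⟨((hT.mem_block hM).mp hk).1, by
      rintro s rfl
      exact hc⟩)) ((hT.mem_block hM).mpr ⟨hg, by simp⟩) hv (by simp [Perp])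
  rw [heq]
  exact (hT.R_mem v').1

end CfsgLib.Geometric.SympOrth.Data
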