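import Cfsg.Agent.Lib.Geometric.SympOrth.Kernel
import Cfsg.Agent.Lib.Geometric.SOTensor.Max

/-!
The stabiliser of a tensor product of a symplectic space and an orthogonal space, both of dimension
at least four, is maximal in the symplectic group in odd characteristic.
-/

set_option autoImplicit false
set_option linter.unusedSectionVars false

namespace CfsgLib.Geometric

open Matrix Tensor OrthTensor

variable {ι : Type} [Fintype ι] [DecidableEq ι] {F : Type*} [Field F]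

namespace SympOrth.Data

variable {f : (ι → F) → (ι → F) → F} {n d : ℕ} {e : ι ≃ Fin n × Fin d} {P : GL ι F}
  {f₁ : (Fin n → F) → (Fin n → F) → F} {f₂ : (Fin d → F) → (Fin d → F) → F}
variable [Finite F] (hT : Data f e P f₁ f₂)
include hT

/-- Two non-zero singular vectors pair non-trivially with a common singular vector. -/
lemma exists_common {σ τ : Fin d → F} (hσ : σ ≠ 0) (hQσ : f₂ σ σ = 0) (hτ : τ ≠ 0)
    (hQτ : f₂ τ τ = 0) : ∃ r, r ≠ 0 ∧ f₂ r r = 0 ∧ f₂ σ r ≠ 0 ∧ f₂ τ r ≠ 0 := by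
  have hg₂ := hT.symm₂
  have h2 := hT.two
  by_cases hst : f₂ σ τ = 0
  · have hk : ∀ x : Fin d → F, x ≠ 0 → ¬ (⊤ : Submodule F (Fin d → F)) ≤
        LinearMap.ker (hg₂.fl x) := fun x hx hle => by
      obtain ⟨p, hp⟩ := hg₂.exists_ne hx
      exact hp (by rw [hg₂.symm]; exact hle (Submodule.mem_top (x := p)))
    obtain ⟨y, -, hy1, hy2⟩ := exists_mem_notMem_notMem (hk σ hσ) (hk τ hτ)
    rw [LinearMap.mem_ker, SymForm.fl_apply, hg₂.symm] at hy1 hy2
    set r := y - (f₂ y y / (2 * f₂ σ y)) • σ with hr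
    have e1 : f₂ σ r = f₂ σ y := by rw [hr, hg₂.sub_right, hg₂.smul_right, hQσ]; ring
    have e2 : f₂ τ r = f₂ τ y := by
      rw [hr, hg₂.sub_right, hg₂.smul_right, hg₂.symm τ σ, hst]; ring
    refine ⟨r, fun h => hy1 (by rw [← e1, h, hg₂.zero_right]), ?_, by rwa [e1], by rwa [e2]⟩
    rw [hr, hg₂.sub_left, hg₂.sub_right, hg₂.sub_right, hg₂.smul_left, hg₂.smul_left,
      hg₂.smul_right, hg₂.smul_right, hQσ, hg₂.symm y σ]
    field_simp
    ring
  · set τ' := (f₂ σ τ)⁻¹ • τ with hτ'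
    have h1 : f₂ σ τ' = 1 := by rw [hτ', hg₂.smul_right, inv_mul_cancel₀ hst]
    have hQτ' : f₂ τ' τ' = 0 := by rw [hτ', hg₂.smul_left, hg₂.smul_right, hQτ]; ring
    obtain ⟨w, hwσ, hwτ, hw⟩ := hg₂.exists_aniso_pr hT.three_le hQσ hQτ' h1
    obtain ⟨r0, r1⟩ := hg₂.iso3_spec hQσ hQτ' h1 hwσ hwτ
    refine ⟨_, fun h => one_ne_zero (α := F) (by rw [← r1, h, hg₂.zero_left]), r0, ?_, ?_⟩
    · rw [SymForm.iso3, hg₂.sub_right, hg₂.add_right, hg₂.smul_right, hQσ, hg₂.symm σ w, hwσ, h1, zero_add,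
        zero_sub, mul_one, neg_ne_zero]
      exact mul_ne_zero (inv_ne_zero h2) hw
    · intro h0
      refine one_ne_zero (α := F) ?_
      rw [← r1, hg₂.symm, hτ', hg₂.smul_left, h0, mul_zero]

/-- One transvection at a pure tensor gives all transvections. -/
theorem T_mem_of_one {M : Subgroup (GL ι F)} (hM : M ≤ isom f)
    (hH : Cfsg.Geo.tensorProductSubgroup n d e P ⊓ isom f ≤ M) {s : Fin d → F} (hs : s ≠ 0)
    (hQs : f₂ s s = 0) {u : Fin n → F} {κ : F} (hu : u ≠ 0) (hκ : κ ≠ 0)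
    (h : Symp.T hT.symp (pt e P u s) κ ∈ M) (v : ι → F) (c : F) : Symp.T hT.symp v c ∈ M := by
  have hg₂ := hT.symm₂
  have hmove : ∀ {a : GL (Fin n) F} {b : GL (Fin d) F}, a ∈ isom f₁ → b ∈ isom f₂ →
      ∀ (x : Fin n → F) (y : Fin d → F) (t : F), Symp.T hT.symp (pt e P x y) t ∈ M →
        Symp.T hT.symp (pt e P (ap a x) (ap b y)) t ∈ M := by
    intro a b ha hb x y t ht
    have := M.mul_mem (M.mul_mem (hH (hT.kron_mem_H ha hb)) ht)
      (M.inv_mem (hH (hT.kron_mem_H ha hb)))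
    rwa [Symp.conj_T hT.symp (hT.kron_isom ha hb), ap_kron] at this
  have hsl : ∀ (x : Fin n → F) (t : F), Symp.T hT.symp (pt e P x s) t ∈ M := by
    intro x t
    by_cases hx : x = 0
    · rw [show Symp.T hT.symp (pt e P x s) t = 1 from gl_ext fun z => by
        simp [Symp.ap_T, hx, pt_zero_left]]
      exact one_mem M
    have hsq : ∀ a : F, Symp.T hT.symp (pt e P x s) (a * a * κ) ∈ M := by
      intro a
      by_cases ha : a = 0
      · simp [ha, Symp.T_zero_right]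
      obtain ⟨g, hg, hgx⟩ := Symp.exists_isom_map hT.symp₁ hu (smul_ne_zero ha hx)
      have := hmove hg (one_mem _) u s κ h
      rwa [hgx, ap_one, pt_smul_left, Symp.T_smul] at this
    obtain ⟨a, b, hab⟩ := Orth.exists_combination (F := F) one_ne_zero one_ne_zero hT.two (t / κ)
    have := M.mul_mem (hsq a) (hsq b)
    rw [Symp.T_mul] at this
    convert this using 2
    field_simp at hab
    linear_combination -hab
  have hone : ∀ σ τ : Fin d → F, f₂ σ σ = 0 → f₂ τ τ = 0 → f₂ σ τ ≠ 0 →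
      (∀ x t, Symp.T hT.symp (pt e P x σ) t ∈ M) → ∀ x t, Symp.T hT.symp (pt e P x τ) t ∈ M := by
    intro σ τ hσ hτ hne hall x t
    have hq : f₂ (σ - τ) (σ - τ) = -(2 * f₂ σ τ) := by
      rw [hg₂.sub_left, hg₂.sub_right, hg₂.sub_right, hσ, hτ, hg₂.symm τ σ]; ring
    have := hmove (one_mem (isom f₁)) (hT.r_mem (σ - τ)) x σ t (hall x t)
    rw [ap_one, hT.ap_r] at this
    have e1 : f₂ σ (σ - τ) = -f₂ σ τ := by rw [hg₂.sub_right, hσ, zero_sub]
    rw [hq, e1] at this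
    have h2 := hT.two
    have e2 : σ - (2 / -(2 * f₂ σ τ) * -f₂ σ τ) • (σ - τ) = τ := by
      rw [show 2 / -(2 * f₂ σ τ) * -f₂ σ τ = 1 by field_simp]
      module
    rwa [e2] at this
  have hall : ∀ τ : Fin d → F, τ ≠ 0 → f₂ τ τ = 0 → ∀ x t, Symp.T hT.symp (pt e P x τ) t ∈ M := by
    intro τ hτ hQτ
    obtain ⟨r, -, hQr, h1, h2⟩ := hT.exists_common hs hQs hτ hQτ
    exact hone r τ hQr hQτ (by rw [hg₂.symm]; exact h2) (hone s r hQs hQr h1 hsl)
  refine Symp.T_mem_of_connected hT.symp hT.two hM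
    (Pset := {p | ∃ x σ, σ ≠ 0 ∧ f₂ σ σ = 0 ∧ pt e P x σ = p}) ?_ ?_ ?_ v c
  · rintro _ ⟨x, σ, hσ, hQσ, rfl⟩ t
    exact hall σ hσ hQσ x t
  · intro z hz
    by_contra hc
    push Not at hc
    obtain ⟨w, hw⟩ := (hT.symp.nondegenerate z hz).2
    refine hw (LinearMap.congr_fun (ext_pt e P (f := (Symp.fl hT.symp).flip z) (g := 0)
      fun a y => ?_) w)
    refine LinearMap.congr_fun (hg₂.eq_zero_of_iso hT.three_le
      (L := ((Symp.fl hT.symp).flip z).comp (ptr e P a)) fun σ hQσ => ?_) y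
    by_cases hσ : σ = 0
    · rw [hσ, map_zero]
    · exact hc _ ⟨a, σ, hσ, hQσ, rfl⟩
  · rintro _ ⟨x, σ, hσ, hQσ, rfl⟩ _ ⟨y, τ, hτ, hQτ, rfl⟩ hp hq
    have hx : x ≠ 0 := fun h => hp (by rw [h, pt_zero_left])
    have hy : y ≠ 0 := fun h => hq (by rw [h, pt_zero_left])
    obtain ⟨r, hr, hQr, h1, h2⟩ := hT.exists_common hσ hQσ hτ hQτ
    have hk : ∀ x : Fin n → F, x ≠ 0 → ¬ (⊤ : Submodule F (Fin n → F)) ≤
        LinearMap.ker ((Symp.fl hT.symp₁).flip x) := fun x hx hle => by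
      obtain ⟨p, hp⟩ := (hT.symp₁.nondegenerate x hx).2
      exact hp (hle (Submodule.mem_top (x := p)))
    obtain ⟨z, -, hz1, hz2⟩ := exists_mem_notMem_notMem (hk x hx) (hk y hy)
    refine ⟨pt e P z r, ⟨z, r, hr, hQr, rfl⟩, ?_, ?_⟩
    · rw [hT.form]; exact mul_ne_zero hz1 h1
    · rw [hT.form]; exact mul_ne_zero hz2 h2

/-- The stabiliser of the tensor decomposition is maximal. -/
theorem isMaximalIn :
    Cfsg.Geo.IsMaximalIn (isom f) (Cfsg.Geo.tensorProductSubgroup n d e P ⊓ isom f) := by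
  have hg₂ := hT.symm₂
  refine ⟨lt_of_le_of_ne inf_le_right fun he => ?_, fun M hHM hMS => ?_⟩
  · obtain ⟨s, hs, hQs⟩ := hg₂.exists_isotropic hT.three_le
    obtain ⟨r, hQr, hsr⟩ := hg₂.exists_hyp hQs hs
    obtain ⟨u, hu⟩ := hT.exists_nonzero
    obtain ⟨x, hx⟩ := (hT.symp₁.nondegenerate u hu).1
    obtain ⟨a, b, hab⟩ :=
      (mem_iff e P _).mp ((inf_eq_right.mp he) (Symp.T_mem_isom hT.symp (pt e P u s) 1))
    have h1 := hab x r
    rw [Symp.ap_T, hT.form, hg₂.symm r s, hsr] at h1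
    have e1 := congrArg (hT.cc s) h1
    have e2 := congrArg (hT.cc r) h1
    simp only [map_add, map_smul, cc_pt, hQs, hQr, hsr, hg₂.symm r s, one_smul, zero_smul,
      smul_zero, add_zero, zero_add, mul_one, one_mul] at e1 e2
    have h3 : f₁ x (f₁ x u • u) = 0 := by
      nth_rewrite 1 [e1]
      rw [e2]
      simp [hT.symp₁.bilinear.smul_left, hT.symp₁.bilinear.smul_right, hT.symp₁.alternating]
    rw [hT.symp₁.bilinear.smul_right, mul_self_eq_zero] at h3
    exact hx h3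
  by_cases hc : ∃ (u : Fin n → F) (w : Fin d → F) (κ : F),
      u ≠ 0 ∧ w ≠ 0 ∧ κ ≠ 0 ∧ f₂ w w = 0 ∧ Symp.T hT.symp (pt e P u w) κ ∈ M
  · obtain ⟨u, w, κ, hu, hw, hκ, hQw, hm⟩ := hc
    exact Or.inr (le_antisymm hMS (Symp.isom_le_of_T_mem hT.symp fun v c =>
      hT.T_mem_of_one hMS hHM hw hQw hu hκ hm v c))
  · exact Or.inl (le_antisymm (le_inf (hT.le_of_small ⟨hMS, hHM, hc⟩) hMS) hHM)

end SympOrth.Data

/-- The stabiliser of a tensor decomposition into a symplectic and an orthogonal factor of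
dimensions at least four is maximal. -/
theorem symp_orth_tensor_isMaximalIn [Fintype F] {f : (ι → F) → (ι → F) → F} {n d : ℕ}
    (hf : Cfsg.Geo.IsSymplecticForm f) (hodd : Odd (Fintype.card F)) (hn : 4 ≤ n) (hd : 4 ≤ d)
    {e : ι ≃ Fin n × Fin d} {P : GL ι F} {f₁ : (Fin n → F) → (Fin n → F) → F}
    {f₂ : (Fin d → F) → (Fin d → F) → F} (hf₁ : Cfsg.Geo.IsSymplecticForm f₁)
    (hf₂ : Cfsg.Geo.IsSymmetricForm f₂)
    (hT : Cfsg.Geo.IsTensorFormStructure id f f₁ f₂ e P) :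
    Cfsg.Geo.IsMaximalIn (isom f) (Cfsg.Geo.tensorProductSubgroup n d e P ⊓ isom f) := by
  obtain ⟨c, hc, hform⟩ := Tensor.form_pt e P (σ := RingHom.id F)
    (Orth.bilinear_eq_formOfGram hf₁.bilinear) (Orth.bilinear_eq_formOfGram hf₂.bilinear) hT
  refine SympOrth.Data.isMaximalIn (f₁ := f₁) (f₂ := fun x y => c * f₂ x y)
    { symp := hf, symp₁ := hf₁, symm₂ := ⟨Orth.two_ne_zero_of_odd hodd, ?_⟩, four₁ := hn,
      four₂ := hd, form := fun x x' y y' => by rw [hform]; ring }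
  exact
    { bilinear :=
        { add_left := fun x y v => by rw [hf₂.bilinear.add_left, mul_add]
          smul_left := fun a x v => by rw [hf₂.bilinear.smul_left, mul_left_comm]
          add_right := fun v x y => by rw [hf₂.bilinear.add_right, mul_add]
          smul_right := fun a v x => by rw [hf₂.bilinear.smul_right, mul_left_comm] }
      symm := fun x y => by rw [hf₂.symm]
      nondegenerate := fun v hv =>
        ⟨(hf₂.nondegenerate v hv).1.imp fun x hx => mul_ne_zero hc hx,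
          (hf₂.nondegenerate v hv).2.imp fun x hx => mul_ne_zero hc hx⟩ }

end CfsgLib.Geometric
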