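import Cfsg.Agent.Lib.Geometric.SympOrth.Cen

/-!
The radical of the stabiliser of a slice `a ⊗ F^d` inside an overgroup without transvections at pure
tensors with a singular second factor: its linear parts are factorwise.
-/

set_option autoImplicit false
set_option linter.unusedSectionVars false

namespace CfsgLib.Geometric.SympOrth.Data

open Matrix Tensor OrthTensor

variable {ι : Type} [Fintype ι] [DecidableEq ι] {F : Type*} [Field F]
variable {f : (ι → F) → (ι → F) → F} {n d : ℕ} {e : ι ≃ Fin n × Fin d} {P : GL ι F}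
  {f₁ : (Fin n → F) → (Fin n → F) → F} {f₂ : (Fin d → F) → (Fin d → F) → F}
variable [Finite F] (hT : Data f e P f₁ f₂)
include hT

variable {M : Subgroup (GL ι F)} (hM : hT.Small M) {a : Fin n → F} (ha : a ≠ 0)
include hM ha

omit ha in
/-- A radical element fixes the slice and keeps the contraction. -/
lemma rad_fix {m : GL ι F} (hm : m ∈ M) {Λ : (Fin d → F) →ₗ[F] (ι → F)}
    (hΛ : ∀ c, hT.dd a (Λ c) = 0)
    (hmx : ∀ x, ap m x - x - Λ (hT.dd a x) ∈ LinearMap.range (ptr e P a)) :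
    (∀ y, ap m (pt e P a y) = pt e P a y) ∧ ∀ x, hT.dd a (ap m x) = hT.dd a x := by
  have hda : ∀ y, hT.dd a (pt e P a y) = 0 := fun y => by
    rw [dd_pt, hT.symp₁.alternating, zero_smul]
  have hdd : ∀ x, hT.dd a (ap m x) = hT.dd a x := by
    intro x
    obtain ⟨w, hw⟩ := hmx x
    rw [ptr_apply] at hw
    have : ap m x = x + Λ (hT.dd a x) + pt e P a w := by rw [hw]; abel
    rw [this, map_add, map_add, hΛ, hda, add_zero, add_zero]
  refine ⟨fun y => ?_, hdd⟩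
  by_contra hne
  obtain ⟨p, hp⟩ := (hT.symp.nondegenerate _ (sub_ne_zero.mpr hne)).1
  apply hp
  obtain ⟨q, rfl⟩ : ∃ q, ap m q = p := ⟨ap m⁻¹ p, ap_ap_inv m p⟩
  rw [Symp.sub_right hT.symp, mem_isom_iff.mp (hM.le_isom hm), hT.f_pt', hT.f_pt', hdd, sub_self]

omit ha in
/-- On the orthogonal of the slice the moved part is adjoint to the linear part. -/
lemma rad_perp {m : GL ι F} (hm : m ∈ M) {Λ : (Fin d → F) →ₗ[F] (ι → F)}
    (hΛ : ∀ c, hT.dd a (Λ c) = 0)
    (hmx : ∀ x, ap m x - x - Λ (hT.dd a x) ∈ LinearMap.range (ptr e P a)) {y : ι → F}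
    (hy : hT.dd a y = 0) :
    ap m y - y ∈ LinearMap.range (ptr e P a) ∧ ∀ p, f (ap m y - y) p = -f y (Λ (hT.dd a p)) := by
  obtain ⟨-, hdd⟩ := hT.rad_fix hM hm hΛ hmx
  have h1 : ap m y - y ∈ LinearMap.range (ptr e P a) := by
    have := hmx y
    rwa [hy, map_zero, sub_zero] at this
  refine ⟨h1, fun p => ?_⟩
  obtain ⟨w, hw⟩ := h1
  obtain ⟨w', hw'⟩ := hmx p
  rw [ptr_apply] at hw hw'
  have hmy : ap m y = y + pt e P a w := by rw [hw]; abel
  have hmp : ap m p = p + Λ (hT.dd a p) + pt e P a w' := by rw [hw']; abel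
  have h2 := mem_isom_iff.mp (hM.le_isom hm) y p
  have h3 : f (ap m y) (pt e P a w') = 0 := by
    rw [hT.f_pt', hdd, hy, hT.symm₂.zero_left]
  have h4 : f (pt e P a w) (Λ (hT.dd a p)) = 0 := by
    rw [hT.symp.skew, hT.f_pt', hΛ, hT.symm₂.zero_left, neg_zero]
  rw [hmp, hT.symp.bilinear.add_right, h3, add_zero, hmy, hT.symp.bilinear.add_left,
    hT.symp.bilinear.add_right, hT.symp.bilinear.add_right, h4, add_zero] at h2
  rw [← hw]
  linear_combination h2

/-- Two radical elements pair to a multiple of the form. -/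
lemma pair_of_rad {Λ Λ' : (Fin d → F) →ₗ[F] (ι → F)} (hΛ : ∀ c, hT.dd a (Λ c) = 0)
    (hΛ' : ∀ c, hT.dd a (Λ' c) = 0) (h : hT.Rad M a Λ) (h' : hT.Rad M a Λ') :
    ∃ σ : F, ∀ y y', f (Λ' y) (Λ y') - f (Λ y) (Λ' y') = σ * f₂ y y' := by
  obtain ⟨m, hm, hmx⟩ := h
  obtain ⟨m', hm', hmx'⟩ := h'
  obtain ⟨hf1, hd1⟩ := hT.rad_fix hM hm hΛ hmx
  obtain ⟨hf2, hd2⟩ := hT.rad_fix hM hm' hΛ' hmx'
  obtain ⟨p, hp⟩ := (hT.symp₁.nondegenerate a ha).2
  set p' := (f₁ a p)⁻¹ • p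
  have hap : f₁ a p' = 1 := by rw [hT.symp₁.bilinear.smul_right, inv_mul_cancel₀ hp]
  let A : (Fin d → F) →ₗ[F] (ι → F) :=
    ((apEquiv m).toLinearMap - LinearMap.id).comp Λ' -
      ((apEquiv m').toLinearMap - LinearMap.id).comp Λ
  let D : (Fin d → F) →ₗ[F] (Fin d → F) := (hT.dd p').comp A
  have hA : ∀ c, A c = (ap m (Λ' c) - Λ' c) - (ap m' (Λ c) - Λ c) := fun c => rfl
  have r1 := fun c => hT.rad_perp hM hm hΛ hmx (hΛ' c)
  have r2 := fun c => hT.rad_perp hM hm' hΛ' hmx' (hΛ c)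
  have hAD : ∀ c, A c = pt e P a (D c) := by
    intro c
    obtain ⟨w, hw⟩ : A c ∈ LinearMap.range (ptr e P a) := by
      rw [hA]; exact Submodule.sub_mem _ (r1 c).1 (r2 c).1
    rw [ptr_apply] at hw
    show A c = pt e P a (hT.dd p' (A c))
    rw [← hw, dd_pt, hap, one_smul]
  have hform : ∀ c c', f₂ (D c) c' = f (Λ' c) (Λ c') - f (Λ c) (Λ' c') := by
    intro c c'
    have h1 : f (A c) (pt e P p' c') = f₂ (D c) c' := by
      rw [hAD, hT.form, hap, one_mul]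
    have hc : hT.dd a (pt e P p' c') = -c' := by
      rw [dd_pt, hT.symp₁.skew, hap, neg_one_smul]
    rw [← h1, hA, Symp.sub_left hT.symp, (r1 c).2, (r2 c).2, hc, map_neg, map_neg,
      Symp.neg_right hT.symp, Symp.neg_right hT.symp]
    ring
  have hMm := M.mul_mem hm hm'
  have hMm' := M.mul_mem hm' hm
  obtain ⟨σ, hσ⟩ := hT.cen_scalar hM ha (S := D)
    ⟨(m * m') * (m' * m)⁻¹, M.mul_mem hMm (M.inv_mem hMm'), fun x => by
      obtain ⟨y, rfl⟩ : ∃ y, ap (m' * m) y = x := ⟨ap (m' * m)⁻¹ x, ap_ap_inv _ x⟩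
      have hcy : hT.dd a (ap (m' * m) y) = hT.dd a y := by rw [ap_mul, hd2, hd1]
      rw [hcy, ap_mul (g := m * m'), ap_inv_ap, ← hAD, hA, ap_mul, ap_mul]
      obtain ⟨w, hw⟩ := hmx y
      obtain ⟨w', hw'⟩ := hmx' y
      rw [ptr_apply] at hw hw'
      have hy1 : ap m y = y + Λ (hT.dd a y) + pt e P a w := by rw [hw]; abel
      have hy2 : ap m' y = y + Λ' (hT.dd a y) + pt e P a w' := by rw [hw']; abel
      conv_lhs => rw [hy2]
      conv_rhs => rw [hy1]
      rw [ap_add, ap_add, ap_add, ap_add, hy1, hy2, hf1, hf2]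
      abel⟩
  exact ⟨σ, fun y y' => by rw [← hform, hσ, hT.symm₂.smul_left]⟩

omit ha in
lemma rad_sub {Λ Λ' : (Fin d → F) →ₗ[F] (ι → F)} (hΛ : ∀ c, hT.dd a (Λ c) = 0)
    (hΛ' : ∀ c, hT.dd a (Λ' c) = 0) (h : hT.Rad M a Λ) (h' : hT.Rad M a Λ') :
    hT.Rad M a (Λ - Λ') := by
  obtain ⟨m, hm, hmx⟩ := h
  obtain ⟨m', hm', hmx'⟩ := h'
  refine ⟨m * m'⁻¹, mul_mem hm (inv_mem hm'), fun x => ?_⟩
  obtain ⟨y, rfl⟩ : ∃ y, ap m' y = x := ⟨ap m'⁻¹ x, ap_ap_inv _ x⟩
  rw [(hT.rad_fix hM hm' hΛ' hmx').2, ap_mul, ap_inv_ap, LinearMap.sub_apply]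
  convert Submodule.sub_mem _ (hmx y) (hmx' y) using 1
  abel

omit ha in
lemma rad_conj {Λ : (Fin d → F) →ₗ[F] (ι → F)} (h : hT.Rad M a Λ) {g : GL (Fin n) F}
    (hg : g ∈ isom f₁) (hga : ap g a = a) :
    hT.Rad M a ((apEquiv (kron e P g (1 : GL (Fin d) F))).toLinearMap.comp Λ) := by
  set K := kron e P g (1 : GL (Fin d) F)
  have hK : K ∈ M := hT.kron_mem_M hM hg (one_mem _)
  obtain ⟨m, hm, hmx⟩ := h
  refine ⟨K * m * K⁻¹, mul_mem (mul_mem hK hm) (inv_mem hK), fun x => ?_⟩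
  have hc : hT.dd a (ap K⁻¹ x) = hT.dd a x := hT.symm₂.eq_of_forall fun y => by
    rw [← hT.f_pt', ← mem_isom_iff.mp (hM.le_isom hK), ap_ap_inv, ap_kron, hga, ap_one, hT.f_pt']
  obtain ⟨w, hw⟩ := hmx (ap K⁻¹ x)
  refine ⟨w, ?_⟩
  rw [ptr_apply] at hw
  have := congrArg (ap K) hw
  rw [ap_kron, hga, ap_one, ap_sub, ap_sub, ap_ap_inv, hc] at this
  rw [ptr_apply, this, ap_mul, ap_mul]
  rfl

/-- The radical element of the first factor. -/
lemma rad_ptr {c : Fin n → F} (hd : f₁ c a = 0) :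
    ∃ k ∈ Cfsg.Geo.tensorProductSubgroup n d e P ⊓ isom f,
      ∀ x, ap k x = x + pt e P c (hT.dd a x) + pt e P a (hT.dd c x) := by
  have had : f₁ a c = 0 := (Symp.eq_zero_comm hT.symp₁).mp hd
  refine ⟨_, hT.kron_mem_H (b := (1 : GL (Fin d) F)) (mul_mem (mul_mem
    (Symp.T_mem_isom hT.symp₁ (c + a) 1) (Symp.T_mem_isom hT.symp₁ c (-1)))
    (Symp.T_mem_isom hT.symp₁ a (-1))) (one_mem _), fun x => ?_⟩
  rw [show kron e P (Symp.T hT.symp₁ (c + a) 1 * Symp.T hT.symp₁ c (-1) *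
      Symp.T hT.symp₁ a (-1)) (1 : GL (Fin d) F) = kron e P (Symp.T hT.symp₁ (c + a) 1) 1 *
      kron e P (Symp.T hT.symp₁ c (-1)) 1 * kron e P (Symp.T hT.symp₁ a (-1)) 1 by
    rw [kron_mul, kron_mul, one_mul, one_mul], ap_mul, ap_mul, hT.ap_kron_T, hT.ap_kron_T,
    hT.ap_kron_T, hT.dd_add]
  simp only [LinearMap.add_apply, map_add, map_smul, dd_pt, hd, had, hT.symp₁.alternating,
    zero_smul, smul_zero, add_zero, pt_add_left, pt_add_right]
  module

omit ha in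
lemma rad_conj₂ {Λ : (Fin d → F) →ₗ[F] (ι → F)} (h : hT.Rad M a Λ) {b : GL (Fin d) F}
    (hb : b ∈ isom f₂) :
    hT.Rad M a ((apEquiv (kron e P (1 : GL (Fin n) F) b)).toLinearMap ∘ₗ Λ ∘ₗ
      (apEquiv b⁻¹).toLinearMap) := by
  set K := kron e P (1 : GL (Fin n) F) b with hKdef
  have hK : K ∈ M := hT.kron_mem_M hM (one_mem _) hb
  obtain ⟨m, hm, hmx⟩ := h
  refine ⟨K * m * K⁻¹, mul_mem (mul_mem hK hm) (inv_mem hK), fun x => ?_⟩
  have hc : hT.dd a (ap K⁻¹ x) = ap b⁻¹ (hT.dd a x) := hT.symm₂.eq_of_forall fun y => by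
    rw [← hT.f_pt', ← mem_isom_iff.mp (hM.le_isom hK), ap_ap_inv, hKdef, ap_kron, ap_one, hT.f_pt',
      ← mem_isom_iff.mp hb (ap b⁻¹ _), ap_ap_inv]
  obtain ⟨w, hw⟩ := hmx (ap K⁻¹ x)
  refine ⟨ap b w, ?_⟩
  rw [ptr_apply] at hw
  have := congrArg (ap K) hw
  rw [ap_sub, ap_sub, ap_ap_inv, hc, hKdef, ap_kron, ap_one] at this
  rw [ptr_apply, this, ap_mul, ap_mul, LinearMap.comp_apply, LinearMap.comp_apply]
  rfl

/-- The linear part of a radical element is a scalar plus a skew map with scalar norm. -/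
lemma exists_skew_of_rad {Λ : (Fin d → F) →ₗ[F] (ι → F)} (hΛ : ∀ c, hT.dd a (Λ c) = 0)
    (h : hT.Rad M a Λ) {c : Fin n → F} (hc : f₁ c a = 0) (hca : c ∉ Submodule.span F {a}) :
    ∃ α κ : F, (∀ y y', f₂ (hT.dd c (Λ y) - α • y) y' + f₂ y (hT.dd c (Λ y') - α • y') = 0) ∧
      ∀ y y', f₂ (hT.dd c (Λ y) - α • y) (hT.dd c (Λ y') - α • y') = κ * f₂ y y' := by
  have h2 := hT.two
  obtain ⟨z, hz, hcz⟩ := Symp.exists_perp_ne hT.symp₁ hca
  rw [Symp.mem_perp_span] at hz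
  have hac : f₁ a c = 0 := (Symp.eq_zero_comm hT.symp₁).mp hc
  have haz : f₁ a z = 0 := (Symp.eq_zero_comm hT.symp₁).mp hz
  let A : (Fin d → F) →ₗ[F] (Fin d → F) := (hT.dd c).comp Λ
  have hAap : ∀ y, hT.dd c (Λ y) = A y := fun y => rfl
  obtain ⟨k, hk, hkx⟩ := hT.rad_ptr hM ha hc
  have hptr : ∀ y, hT.dd a (ptr e P c y) = 0 := fun y => by rw [ptr_apply, dd_pt, hc, zero_smul]
  have hRd : hT.Rad M a (ptr e P c) := ⟨k, hM.le hk, fun x => ⟨hT.dd c x, by
    rw [hkx, ptr_apply, ptr_apply]; abel⟩⟩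
  obtain ⟨σ, hσ⟩ := hT.pair_of_rad hM ha hΛ hptr h hRd
  have hsym : ∀ y y', f₂ (A y) y' + f₂ y (A y') = 2 * (-σ / 2) * f₂ y y' := by
    intro y y'
    have h1 := hσ y y'
    rw [ptr_apply, ptr_apply, hT.symp.skew (pt e P c y), hT.f_pt', hT.f_pt', hAap, hAap] at h1
    rw [hT.symm₂.symm y (A y')]
    field_simp
    linear_combination -h1
  -- a pure linear part
  have h1 := hT.rad_conj hM h (Symp.T_mem_isom hT.symp₁ c 1) (Symp.ap_T_fix hT.symp₁ 1 hac)
  have hK1 : ∀ y, hT.dd a (((apEquiv (kron e P (Symp.T hT.symp₁ c 1)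
      (1 : GL (Fin d) F))).toLinearMap.comp Λ) y) = 0 := fun y => by
    rw [LinearMap.comp_apply, LinearEquiv.coe_coe, apEquiv_apply, hT.ap_kron_T, one_smul, map_add,
      hΛ, dd_pt, hc, zero_smul, add_zero]
  have hpure : hT.Rad M a ((ptr e P c).comp A) := by
    convert hT.rad_sub hM hK1 hΛ h1 h using 1
    refine LinearMap.ext fun y => ?_
    simp [hT.ap_kron_T, A]
  have hpure0 : ∀ y, hT.dd a (((ptr e P c).comp A) y) = 0 := fun y => hptr _
  have h2' := hT.rad_conj hM hpure (Symp.T_mem_isom hT.symp₁ z 1) (Symp.ap_T_fix hT.symp₁ 1 haz)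
  have hK2 : ∀ y, hT.dd a (((apEquiv (kron e P (Symp.T hT.symp₁ z 1)
      (1 : GL (Fin d) F))).toLinearMap.comp ((ptr e P c).comp A)) y) = 0 := fun y => by
    rw [LinearMap.comp_apply, LinearEquiv.coe_coe, apEquiv_apply, hT.ap_kron_T, one_smul, map_add,
      hpure0, dd_pt, hz, zero_smul, add_zero]
  obtain ⟨σ', hσ'⟩ := hT.pair_of_rad hM ha hpure0 hK2 hpure h2'
  have hnorm : ∀ y y', f₂ (A y) (A y') = (-σ' / (2 * (f₁ c z * f₁ c z))) * f₂ y y' := by
    intro y y'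
    have h1 := hσ' y y'
    simp only [LinearMap.comp_apply, LinearEquiv.coe_coe, apEquiv_apply, ptr_apply, ap_kron, ap_one,
      Symp.ap_T, hT.form, hT.symp₁.bilinear.add_left, hT.symp₁.bilinear.add_right,
      hT.symp₁.bilinear.smul_left, hT.symp₁.bilinear.smul_right, hT.symp₁.alternating,
      hT.symp₁.skew z c] at h1
    field_simp
    linear_combination -h1
  refine ⟨-σ / 2, -σ' / (2 * (f₁ c z * f₁ c z)) - (-σ / 2) * (-σ / 2), fun y y' => ?_, fun y y' => ?_⟩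
  · simp only [hAap, hT.symm₂.sub_left, hT.symm₂.sub_right, hT.symm₂.smul_left,
      hT.symm₂.smul_right]
    linear_combination hsym y y'
  · simp only [hAap, hT.symm₂.sub_left, hT.symm₂.sub_right, hT.symm₂.smul_left,
      hT.symm₂.smul_right]
    linear_combination hnorm y y' - (-σ / 2) * hsym y y'

/-- The linear part of a radical element is factorwise. -/
theorem scalar_of_rad {Λ : (Fin d → F) →ₗ[F] (ι → F)} (hΛ : ∀ c, hT.dd a (Λ c) = 0)
    (h : hT.Rad M a Λ) {c : Fin n → F} (hc : f₁ c a = 0) :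
    ∃ α : F, ∀ y, hT.dd c (Λ y) = α • y := by
  by_cases hca : c ∈ Submodule.span F {a}
  · obtain ⟨t, rfl⟩ := Submodule.mem_span_singleton.mp hca
    exact ⟨0, fun y => by rw [hT.dd_smul, LinearMap.smul_apply, hΛ, smul_zero, zero_smul]⟩
  have hg := hT.symm₂
  have h2 := hT.two
  obtain ⟨α, κ, hsk, -⟩ := hT.exists_skew_of_rad hM ha hΛ h hc hca
  refine ⟨α, fun y => sub_eq_zero.mp ?_⟩
  let K : (Fin d → F) →ₗ[F] (Fin d → F) := (hT.dd c).comp Λ - α • LinearMap.id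
  have hK : ∀ y, K y = hT.dd c (Λ y) - α • y := fun y => rfl
  -- the skew part kills every vector of non-zero value
  have hKv : ∀ v, f₂ v v ≠ 0 → K v = 0 := by
    intro v hv
    by_contra hne
    have hvK : f₂ v (K v) = 0 := by
      have := hsk v v
      rw [← hK, hg.symm (K v) v] at this
      exact (mul_eq_zero.mp (show (2 : F) * f₂ v (K v) = 0 by linear_combination this)).resolve_left
        h2
    have hskew : ∀ x y, f₂ (K x) y = -f₂ x (K y) := fun x y => by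
      have := hsk x y
      rw [← hK, ← hK] at this
      linear_combination this
    set rv := hT.r v
    have hr2 := hT.r_mul_self hv
    have hrinv : rv⁻¹ = rv := inv_eq_of_mul_eq_one_right hr2
    let Λ' : (Fin d → F) →ₗ[F] (ι → F) := (apEquiv (kron e P (1 : GL (Fin n) F) rv)).toLinearMap ∘ₗ
      Λ ∘ₗ (apEquiv rv⁻¹).toLinearMap
    have hdd : ∀ (u : Fin n → F) (x : ι → F),
        hT.dd u (ap (kron e P (1 : GL (Fin n) F) rv) x) = ap rv (hT.dd u x) := fun u x =>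
      LinearMap.congr_fun (ext_pt e P
        (f := (hT.dd u).comp (apEquiv (kron e P (1 : GL (Fin n) F) rv)).toLinearMap)
        (g := (apEquiv rv).toLinearMap.comp (hT.dd u)) fun p y => by simp) x
    have hΛ' : ∀ y, hT.dd a (Λ' y) = 0 := fun y => by
      simp only [Λ', LinearMap.comp_apply, LinearEquiv.coe_coe, apEquiv_apply, hdd, hΛ, ap_zero]
    have hdiff := hT.rad_sub hM hΛ hΛ' h (hT.rad_conj₂ hM h (hT.r_mem v))
    obtain ⟨α', κ', hsk', hno'⟩ := hT.exists_skew_of_rad hM ha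
      (Λ := Λ - Λ') (fun y => by rw [LinearMap.sub_apply, map_sub, hΛ, hΛ', sub_zero]) hdiff hc hca
    let N : (Fin d → F) →ₗ[F] (Fin d → F) :=
      K - (apEquiv rv).toLinearMap ∘ₗ K ∘ₗ (apEquiv rv).toLinearMap
    have hN : ∀ y, hT.dd c ((Λ - Λ') y) = N y := fun y => by
      simp only [Λ', N, hrinv, LinearMap.sub_apply, map_sub, LinearMap.comp_apply,
        LinearEquiv.coe_coe, apEquiv_apply, hdd, hK, ap_smul]
      rw [← ap_mul, hr2, ap_one]
      abel
    have hNskew : ∀ x y, f₂ (N x) y = -f₂ x (N y) := by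
      intro x y
      have hI := mem_isom_iff.mp (hT.r_mem v)
      have hrr : ∀ z, ap rv (ap rv z) = z := fun z => by rw [← ap_mul, hr2, ap_one]
      simp only [N, LinearMap.sub_apply, LinearMap.comp_apply, LinearEquiv.coe_coe, apEquiv_apply,
        hg.sub_left, hg.sub_right]
      have e1 : f₂ (ap rv (K (ap rv x))) y = f₂ (K (ap rv x)) (ap rv y) := by
        rw [← hI (K (ap rv x)) (ap rv y), hrr]
      have e2 : f₂ x (ap rv (K (ap rv y))) = f₂ (ap rv x) (K (ap rv y)) := by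
        rw [← hI (ap rv x) (K (ap rv y)), hrr]
      rw [e1, e2, hskew x y, hskew (ap rv x)]
      ring
    have hα' : α' = 0 := by
      have := hsk' v v
      rw [hN, hg.sub_left, hg.sub_right, hg.smul_left, hg.smul_right, hNskew v v] at this
      have h3 : 2 * (f₂ v v * α') = 2 * 0 := by linear_combination -this
      exact (mul_eq_zero.mp (mul_left_cancel₀ h2 h3)).resolve_left hv
    simp only [hN, hα', zero_smul, sub_zero] at hno'
    -- a vector orthogonal to `v` and its image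
    have hfix : ∀ x, f₂ x v = 0 → f₂ (K x) v = 0 → N x = 0 := fun x hx hx' => by
      simp only [N, LinearMap.sub_apply, LinearMap.comp_apply, LinearEquiv.coe_coe, apEquiv_apply,
        rv, hT.ap_r_perp hx, hT.ap_r_perp hx', sub_self]
    obtain ⟨x, hx, hx0⟩ := Submodule.exists_mem_ne_zero_of_ne_bot
      (LinearMap.ker_ne_bot_of_finrank_lt (f := (hg.fl v).prod (hg.fl (K v)))
        (by have := hT.four₂; simp; omega))
    obtain ⟨hx1, hx2⟩ : f₂ x v = 0 ∧ f₂ x (K v) = 0 := by simpa using hx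
    obtain ⟨y₀, hy₀⟩ := hg.exists_ne hx0
    have hκ' : κ' = 0 := by
      have := hno' x y₀
      rw [hfix x hx1 (by rw [hskew, hx2, neg_zero]), hg.zero_left, eq_comm, mul_eq_zero] at this
      exact this.resolve_right hy₀
    obtain ⟨y₁, hy₁⟩ := hg.exists_ne hne
    set y := y₁ - (f₂ y₁ v / f₂ v v) • v with hy
    have hyv : f₂ y v = 0 := by rw [hy, hg.sub_left, hg.smul_left, div_mul_cancel₀ _ hv, sub_self]
    have hyK : f₂ (K v) y ≠ 0 := by
      rw [hy, hg.sub_right, hg.smul_right, hg.symm (K v) v, hvK, mul_zero, sub_zero]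
      exact hy₁
    have hNy : N y = (2 / f₂ v v * f₂ (K y) v) • v := by
      simp only [N, LinearMap.sub_apply, LinearMap.comp_apply, LinearEquiv.coe_coe, apEquiv_apply,
        rv, hT.ap_r_perp hyv]
      rw [hT.ap_r]
      abel
    have hKy : f₂ (K y) v ≠ 0 := by
      rw [hskew, neg_ne_zero, hg.symm]
      exact hyK
    have := hno' y y
    rw [hκ', zero_mul, hNy, hg.smul_left, hg.smul_right] at this
    simp [hKy, h2, hv] at this
  obtain ⟨v, hv⟩ := hT.exists_aniso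
  rw [← hK]
  by_cases hy : f₂ y y = 0
  · by_cases hyv : f₂ (y + v) (y + v) = 0
    · have hy' : f₂ (y - v) (y - v) ≠ 0 := fun h0 => by
        refine hv ((mul_eq_zero.mp (show (2 : F) * f₂ v v = 0 from ?_)).resolve_left h2)
        simp only [hg.add_left, hg.add_right, hg.sub_left, hg.sub_right] at hyv h0
        linear_combination hyv + h0 - 2 * hy
      have := hKv _ hy'
      rwa [map_sub, hKv v hv, sub_zero] at this
    · have := hKv _ hyv
      rwa [map_add, hKv v hv, add_zero] at this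
  · exact hKv y hy

end CfsgLib.Geometric.SympOrth.Data
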