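import Cfsg.Agent.Lib.Geometric.SympOrth.Radical

/-!
Elements of an overgroup without transvections at pure tensors with a singular second factor that
map one slice `a ⊗ F^d` into a slice, or to the orthogonal of one, lie in the stabiliser.
-/

set_option autoImplicit false
set_option linter.unusedSectionVars false

namespace CfsgLib.Geometric.SympOrth.Data

open Matrix Tensor OrthTensor

variable {ι : Type} [Fintype ι] [DecidableEq ι] {F : Type*} [Field F]
variable {f : (ι → F) → (ι → F) → F} {n d : ℕ} {e : ι ≃ Fin n × Fin d} {P : GL ι F}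
  {f₁ : (Fin n → F) → (Fin n → F) → F} {f₂ : (Fin d → F) → (Fin d → F) → F}
variable [Finite F] (hT : Data f e P f₁ f₂) {M : Subgroup (GL ι F)} (hM : hT.Small M)
include hT hM

local notation "H₀" => Cfsg.Geo.tensorProductSubgroup n d e P

lemma mem_of_mul_inv {g k : GL ι F} (hk : k ∈ H₀) (h : k⁻¹ * g ∈ H₀) : g ∈ H₀ := by
  have := mul_mem hk h
  rwa [mul_inv_cancel_left] at this

/-- An element fixing a slice pointwise lies in the stabiliser. -/
theorem mem_of_fix {a : Fin n → F} (ha : a ≠ 0) {g : GL ι F} (hg : g ∈ M)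
    (hfix : ∀ y, ap g (pt e P a y) = pt e P a y) : g ∈ H₀ := by
  classical
  have hgI := hM.le_isom hg
  obtain ⟨p₀, hp₀⟩ := (hT.symp₁.nondegenerate a ha).2
  obtain ⟨p, hap⟩ : ∃ p, f₁ a p = 1 := ⟨(f₁ a p₀)⁻¹ • p₀, by
    rw [hT.symp₁.bilinear.smul_right, inv_mul_cancel₀ hp₀]⟩
  have hpa : f₁ p a = -1 := by rw [hT.symp₁.skew, hap]
  have hdd : ∀ {k : GL ι F}, k ∈ M → (∀ y, ap k (pt e P a y) = pt e P a y) →
      ∀ x, hT.dd a (ap k x) = hT.dd a x := fun {k} hk hkf x => hT.symm₂.eq_of_forall fun y => by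
    rw [← hT.f_pt', ← hT.f_pt']
    conv_lhs => rw [← hkf y]
    exact mem_isom_iff.mp (hM.le_isom hk) _ _
  obtain ⟨v₀, hv₀⟩ := hT.exists_aniso
  have hv₀0 : v₀ ≠ 0 := fun h => hv₀ (by rw [h, hT.symm₂.zero_left])
  obtain ⟨φ, -, hφ⟩ := exists_functional_eq_one (U := ⊥) (x := v₀) (by simpa using hv₀0)
  let D₀ : (Fin n → F) →ₗ[F] (Fin n → F) :=
    (con e P φ).comp ((apEquiv g).toLinearMap.comp (ptl e P v₀))
  have hD₀ : ∀ c, D₀ c = con e P φ (ap g (pt e P c v₀)) := fun c => rfl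
  have hga : D₀ a = a := by rw [hD₀, hfix, con_pt, hφ, one_smul]
  -- the action on the orthogonal of the slice
  have hmid : ∀ c, f₁ c a = 0 → ∀ y, ∃ w,
      ap g (pt e P c y) = pt e P (D₀ c) y + pt e P a w := by
    intro c hc
    let L : (Fin d → F) →ₗ[F] (ι → F) := (apEquiv g).toLinearMap.comp (ptr e P c)
    have hLap : ∀ y, L y = ap g (pt e P c y) := fun y => rfl
    have hL : ∀ y, hT.dd a (L y) = 0 := fun y => by
      rw [hLap, hdd hg hfix, dd_pt, hc, zero_smul]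
    have hrad : hT.Rad M a L := by
      obtain ⟨k, hk, hkx⟩ := hT.rad_ptr hM ha hc
      refine ⟨g * k * g⁻¹, mul_mem (mul_mem hg (hM.le hk)) (inv_mem hg), fun x => ?_⟩
      have hc' : hT.dd a (ap g⁻¹ x) = hT.dd a x := by
        conv_rhs => rw [← ap_ap_inv g x, hdd hg hfix]
      refine ⟨hT.dd c (ap g⁻¹ x), ?_⟩
      rw [ap_mul, ap_mul, hkx, ap_add, ap_add, ap_ap_inv, hc', hfix, hLap, ptr_apply]
      abel
    choose α hα using fun c₁ (hd : f₁ c₁ a = 0) => hT.scalar_of_rad hM ha hL hrad hd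
    have hR : ∀ y, L y - pt e P (con e P φ (L v₀)) y ∈ LinearMap.range (ptr e P a) := by
      intro y
      have hcv : ∀ c₁ (hd : f₁ a c₁ = 0), f₁ (con e P φ (L v₀)) c₁ = α c₁
          ((Symp.eq_zero_comm hT.symp₁).mp hd) := by
        intro c₁ hd
        have h1 := hα c₁ ((Symp.eq_zero_comm hT.symp₁).mp hd) v₀
        have h2 := congrArg φ h1
        rw [dd, apply_conr, Symp.fl_apply, map_smul, hφ, smul_eq_mul, mul_one] at h2
        exact h2
      obtain ⟨w, hw⟩ := hT.mem_range_of_dd ha (x := L y - pt e P (con e P φ (L v₀)) y) fun c₁ hd => by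
        rw [map_sub, hα c₁ ((Symp.eq_zero_comm hT.symp₁).mp hd), dd_pt, hcv c₁ hd, sub_self]
      exact ⟨w, hw⟩
    intro y
    obtain ⟨w, hw⟩ := hR y
    refine ⟨w, ?_⟩
    rw [ptr_apply] at hw
    rw [show D₀ c = con e P φ (L v₀) from rfl, hw, hLap]
    abel
  have hD₀a : ∀ c, f₁ c a = 0 → f₁ (D₀ c) a = 0 := by
    intro c hc
    obtain ⟨w, hw⟩ := hmid c hc v₀
    have := hdd hg hfix (pt e P c v₀)
    rw [hw, map_add, dd_pt, dd_pt, dd_pt, hc, hT.symp₁.alternating, zero_smul, zero_smul,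
      add_zero, smul_eq_zero] at this
    exact this.resolve_right hv₀0
  have hD₀f : ∀ c c', f₁ c a = 0 → f₁ c' a = 0 → f₁ (D₀ c) (D₀ c') = f₁ c c' := by
    intro c c' hc hc'
    obtain ⟨w, hw⟩ := hmid c hc v₀
    obtain ⟨w', hw'⟩ := hmid c' hc' v₀
    have := mem_isom_iff.mp hgI (pt e P c v₀) (pt e P c' v₀)
    rw [hw, hw', hT.symp.bilinear.add_left, hT.symp.bilinear.add_right, hT.symp.bilinear.add_right,
      hT.form, hT.form, hT.form, hT.form, hT.form, hT.symp₁.skew a (D₀ c'), hD₀a c hc,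
      hD₀a c' hc', hT.symp₁.alternating] at this
    simp only [zero_mul, neg_zero, add_zero, zero_add] at this
    exact mul_right_cancel₀ hv₀ this
  -- an element of the first factor with the same action
  let π : (Fin n → F) →ₗ[F] (Fin n → F) :=
    LinearMap.id + (Symp.fl hT.symp₁ a).smulRight p - (Symp.fl hT.symp₁ p).smulRight a
  have hπ : ∀ x, π x = x + f₁ x a • p - f₁ x p • a := fun x => rfl
  have hπa : ∀ x, f₁ (π x) a = 0 := fun x => by
    simp [hπ, Symp.sub_left hT.symp₁, hT.symp₁.bilinear.add_left, hT.symp₁.bilinear.smul_left,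
      hpa, hT.symp₁.alternating]
  have hπp : ∀ x, f₁ (π x) p = 0 := fun x => by
    simp [hπ, Symp.sub_left hT.symp₁, hT.symp₁.bilinear.add_left, hT.symp₁.bilinear.smul_left,
      hap, hT.symp₁.alternating]
  let γ : (Fin n → F) →ₗ[F] (Fin n → F) :=
    D₀ - ((Symp.fl hT.symp₁ p).comp D₀).smulRight a
  have hγ : ∀ x, γ x = D₀ x - f₁ (D₀ x) p • a := fun x => rfl
  let hA : (Fin n → F) →ₗ[F] (Fin n → F) :=
    -(Symp.fl hT.symp₁ a).smulRight p + (Symp.fl hT.symp₁ p).smulRight a + γ.comp π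
  have hAap : ∀ x, hA x = -(f₁ x a • p) + f₁ x p • a + γ (π x) := fun x => rfl
  have hγa : ∀ x, f₁ (γ (π x)) a = 0 ∧ f₁ (γ (π x)) p = 0 := fun x => by
    simp [hγ, Symp.sub_left hT.symp₁, hT.symp₁.bilinear.smul_left, hap, hT.symp₁.alternating,
      hD₀a _ (hπa x)]
  have hAf : ∀ x y, f₁ (hA x) (hA y) = f₁ x y := by
    intro x y
    have e1 : f₁ (γ (π x)) (γ (π y)) = f₁ (π x) (π y) := by
      rw [← hD₀f _ _ (hπa x) (hπa y)]
      simp [hγ, Symp.sub_left hT.symp₁, Symp.sub_right hT.symp₁, hT.symp₁.bilinear.smul_left,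
        hT.symp₁.bilinear.smul_right, hT.symp₁.alternating, hD₀a _ (hπa x),
        hT.symp₁.skew a (D₀ _), hD₀a _ (hπa y)]
    have ra : ∀ x, f₁ a x = -f₁ x a := fun x => hT.symp₁.skew a x
    have rp : ∀ x, f₁ p x = -f₁ x p := fun x => hT.symp₁.skew p x
    have e2 : f₁ (π x) (π y) = f₁ x y + f₁ x a * f₁ (π y) p * -1 + f₁ y a * f₁ x p -
        f₁ y p * f₁ x a := by
      rw [hπp y]
      conv_lhs => arg 1; rw [hπ]
      simp only [Symp.sub_left hT.symp₁, hT.symp₁.bilinear.add_left,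
        hT.symp₁.bilinear.smul_left, ra (π y), rp (π y), hπa, hπp]
      rw [hπ]
      simp only [Symp.sub_right hT.symp₁, hT.symp₁.bilinear.add_right,
        hT.symp₁.bilinear.smul_right]
      ring
    rw [hπp y] at e2
    rw [hAap, hAap]
    simp only [hT.symp₁.bilinear.add_left, hT.symp₁.bilinear.add_right, Symp.neg_left hT.symp₁,
      Symp.neg_right hT.symp₁, hT.symp₁.bilinear.smul_left, hT.symp₁.bilinear.smul_right,
      (hγa x).1, (hγa x).2, ra (γ _), rp (γ _), (hγa y).1, (hγa y).2, e1, e2, hap, hpa,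
      hT.symp₁.alternating]
    ring
  have hAinj : Function.Injective hA := (injective_iff_map_eq_zero _).mpr fun x hx => by
    by_contra hne
    obtain ⟨y, hy⟩ := (hT.symp₁.nondegenerate x hne).2
    exact hy (by rw [← hAf, hx, Symp.zero_left hT.symp₁])
  set h₀ : GL (Fin n) F := ofEquiv (LinearEquiv.ofInjectiveEndo hA hAinj) with hh₀
  have hh₀ap : ∀ x, ap h₀ x = hA x := fun x => by rw [hh₀, ap_ofEquiv]; rfl
  have hh₀I : h₀ ∈ isom f₁ := mem_isom_iff.mpr fun x y => by rw [hh₀ap, hh₀ap, hAf]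
  have hh₀a : ap h₀ a = a := by
    rw [hh₀ap, hAap, hπ, hT.symp₁.alternating, hap]
    simp
  set K₀ := kron e P h₀ (1 : GL (Fin d) F)
  have hK₀ : K₀ ∈ H₀ ⊓ isom f := hT.kron_mem_H hh₀I (one_mem _)
  refine hT.mem_of_mul_inv hM hK₀.1 ?_
  set g₁ := K₀⁻¹ * g
  have hg₁ : g₁ ∈ M := mul_mem (inv_mem (hM.le hK₀)) hg
  have hfix₁ : ∀ y, ap g₁ (pt e P a y) = pt e P a y := fun y => by
    apply ap_injective K₀
    rw [ap_mul, ap_ap_inv, hfix, ap_kron, hh₀a, ap_one]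
  have hmid₁ : ∀ c, f₁ c a = 0 → ∀ y, ∃ w, ap g₁ (pt e P c y) = pt e P c y + pt e P a w := by
    intro c hc y
    obtain ⟨w, hw⟩ := hmid c hc y
    have hr : ∃ r : F, hA c = D₀ c + r • a := by
      refine ⟨f₁ c p - f₁ c p - f₁ (D₀ c - f₁ c p • D₀ a) p, ?_⟩
      rw [hAap, hc, hπ, hc, zero_smul, neg_zero, zero_add, add_zero, hγ, map_sub, map_smul, hga]
      module
    obtain ⟨r, hr⟩ := hr
    refine ⟨w - r • y, ap_injective K₀ ?_⟩
    rw [ap_mul, ap_ap_inv, hw, ap_add, ap_kron, ap_kron, hh₀a, ap_one, ap_one, hh₀ap, hr,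
      pt_add_left, pt_smul_left, pt_sub_right, pt_smul_right]
    abel
  -- the linear part
  let Λ : (Fin d → F) →ₗ[F] (ι → F) :=
    -(((apEquiv g₁).toLinearMap - LinearMap.id).comp (ptr e P p))
  have hΛap : ∀ y, Λ y = -(ap g₁ (pt e P p y) - pt e P p y) := fun y => rfl
  have hΛ : ∀ y, hT.dd a (Λ y) = 0 := fun y => by
    rw [hΛap, map_neg, map_sub, hdd hg₁ hfix₁, sub_self, neg_zero]
  have hrad : ∀ x, ap g₁ x - x - Λ (hT.dd a x) ∈ LinearMap.range (ptr e P a) := by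
    intro x
    obtain ⟨w, hw⟩ := hT.mem_range_of_dd ha (x := ap g₁ x - x - Λ (hT.dd a x)) fun c₁ hd => by
      have hl : (hT.dd c₁).comp ((apEquiv g₁).toLinearMap - LinearMap.id - Λ.comp (hT.dd a)) = 0 :=
        ext_pt e P fun c y => by
          simp only [LinearMap.comp_apply, LinearMap.sub_apply, LinearEquiv.coe_coe, apEquiv_apply,
            LinearMap.id_apply, LinearMap.zero_apply, dd_pt, map_smul, hΛap]
          obtain ⟨w, hw⟩ := hmid₁ (c + f₁ c a • p) (by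
            rw [hT.symp₁.bilinear.add_left, hT.symp₁.bilinear.smul_left, hpa]; ring) y
          have h0 : hT.dd c₁ (ap g₁ (pt e P (c + f₁ c a • p) y) -
              pt e P (c + f₁ c a • p) y) = 0 := by
            rw [hw, add_sub_cancel_left, dd_pt, hd, zero_smul]
          simp only [pt_add_left, pt_smul_left, pt_smul_right, ap_add, ap_smul, map_add, map_sub,
            map_smul, map_neg, dd_pt] at h0 ⊢
          linear_combination (norm := module) h0
      exact LinearMap.congr_fun hl x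
    exact ⟨w, hw⟩
  choose α hα using fun c₁ (hd : f₁ c₁ a = 0) =>
    hT.scalar_of_rad hM ha hΛ ⟨g₁, hg₁, hrad⟩ hd
  set c₀ := con e P φ (Λ v₀) with hc₀
  have hc₀d : ∀ c₁ (hd : f₁ a c₁ = 0),
      f₁ c₀ c₁ = α c₁ ((Symp.eq_zero_comm hT.symp₁).mp hd) := by
    intro c₁ hd
    have h2 := congrArg φ (hα c₁ ((Symp.eq_zero_comm hT.symp₁).mp hd) v₀)
    rw [dd, apply_conr, Symp.fl_apply, map_smul, hφ, smul_eq_mul, mul_one] at h2
    exact h2
  have hc₀a : f₁ c₀ a = 0 := by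
    have h2 := congrArg φ (hΛ v₀)
    rwa [dd, apply_conr, Symp.fl_apply, map_zero] at h2
  obtain ⟨k, hk, hkx⟩ := hT.rad_ptr hM ha hc₀a
  have hkfix : ∀ y, ap k (pt e P a y) = pt e P a y := fun y => by
    rw [hkx, dd_pt, dd_pt, hT.symp₁.alternating, (Symp.eq_zero_comm hT.symp₁).mp hc₀a]
    simp [pt_zero_right]
  refine hT.mem_of_mul_inv hM hk.1 ?_
  set g₂ := k⁻¹ * g₁
  have hg₂ : g₂ ∈ M := mul_mem (inv_mem (hM.le hk)) hg₁
  have hfix₂ : ∀ y, ap g₂ (pt e P a y) = pt e P a y := fun y => by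
    apply ap_injective k
    rw [ap_mul, ap_ap_inv, hfix₁, hkfix]
  have hg₂S : ∀ x, ap g₂ x - x ∈ LinearMap.range (ptr e P a) := by
    intro x
    obtain ⟨w₁, hw₁⟩ := hrad x
    obtain ⟨w₂, hw₂⟩ := hT.mem_range_of_dd ha
      (x := Λ (hT.dd a x) - pt e P c₀ (hT.dd a x)) fun c₁ hd => by
      rw [map_sub, hα c₁ ((Symp.eq_zero_comm hT.symp₁).mp hd), dd_pt, hc₀d c₁ hd, sub_self]
    refine ⟨w₁ + w₂ - hT.dd c₀ x, ap_injective k ?_⟩
    rw [ptr_apply, hkfix, pt_sub_right, pt_add_right, hw₂, ← ptr_apply e P a w₁, hw₁, ap_sub,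
      ap_mul (g := k⁻¹), ap_ap_inv, hkx]
    abel
  let S : (Fin d → F) →ₗ[F] (Fin d → F) :=
    -((hT.dd p).comp (((apEquiv g₂).toLinearMap - LinearMap.id).comp (ptr e P p)))
  have hperp : ∀ x, hT.dd a x = 0 → ap g₂ x = x := by
    intro x hx
    have h := hT.rad_perp hM hg₂ (Λ := 0) (by simp) (by simpa using hg₂S) hx
    by_contra hne
    obtain ⟨q, hq⟩ := (hT.symp.nondegenerate _ (sub_ne_zero.mpr hne)).2
    exact hq (by rw [h.2, LinearMap.zero_apply, Symp.zero_right hT.symp, neg_zero])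
  have hg₂ap : ∀ x, ap g₂ x = x + pt e P a (S (hT.dd a x)) := by
    intro x
    obtain ⟨w, hw⟩ := hg₂S (pt e P p (hT.dd a x))
    rw [ptr_apply] at hw
    have hy : hT.dd a (x + pt e P p (hT.dd a x)) = 0 := by
      rw [map_add, dd_pt, hpa, neg_one_smul, add_neg_cancel]
    have h := hperp _ hy
    rw [ap_add] at h
    have hS : S (hT.dd a x) = -w := by
      show -(hT.dd p (ap g₂ (pt e P p (hT.dd a x)) - pt e P p (hT.dd a x))) = -w
      rw [← hw, dd_pt, hap, one_smul]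
    rw [hS, pt_neg_right, hw]
    linear_combination (norm := module) h
  obtain ⟨s, hs⟩ := hT.cen_scalar hM ha (S := S) ⟨g₂, hg₂, hg₂ap⟩
  have : g₂ = kron e P (Symp.T hT.symp₁ a s) (1 : GL (Fin d) F) := gl_ext fun x => by
    rw [hg₂ap, hs, hT.ap_kron_T, pt_smul_right]
  rw [this]
  exact kron_mem e P _ _

/-- An element mapping a slice into a slice lies in the stabiliser. -/
theorem mem_of_slice {a x₀ : Fin n → F} (ha : a ≠ 0) {g : GL ι F} (hg : g ∈ M)
    (hmap : ∀ y, ∃ y', ap g (pt e P a y) = pt e P x₀ y') : g ∈ H₀ := by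
  classical
  obtain ⟨v₀, hv₀⟩ := hT.exists_aniso
  have hv₀0 : v₀ ≠ 0 := fun h => hv₀ (by rw [h, hT.symm₂.zero_left])
  have hx₀ : x₀ ≠ 0 := by
    rintro rfl
    obtain ⟨y', hy'⟩ := hmap v₀
    exact ap_ne_zero g (pt_ne_zero e P ha hv₀0) (by rw [hy', pt_zero_left])
  obtain ⟨h₀, hh₀, hh₀x⟩ := Symp.exists_isom_map hT.symp₁ hx₀ ha
  have hK₀ : kron e P h₀ (1 : GL (Fin d) F) ∈ H₀ ⊓ isom f := hT.kron_mem_H hh₀ (one_mem _)
  set K₀ := kron e P h₀ (1 : GL (Fin d) F) with hK₀def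
  suffices hgoal : K₀ * g ∈ H₀ by
    have hK₀H : K₀ ∈ H₀ := hK₀.1
    have := mul_mem (inv_mem hK₀H) hgoal
    rwa [inv_mul_cancel_left] at this
  set g₁ := K₀ * g with hg₁def
  have hg₁ : g₁ ∈ M := mul_mem (hM.le hK₀) hg
  obtain ⟨p₀, hp₀⟩ := (hT.symp₁.nondegenerate a ha).2
  obtain ⟨p, hap⟩ : ∃ p, f₁ a p = 1 := ⟨(f₁ a p₀)⁻¹ • p₀, by
    rw [hT.symp₁.bilinear.smul_right, inv_mul_cancel₀ hp₀]⟩
  let β : (Fin d → F) →ₗ[F] (Fin d → F) :=
    (hT.dd p).comp ((apEquiv g₁).toLinearMap.comp (ptr e P a))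
  have hβ : ∀ y, ap g₁ (pt e P a y) = pt e P a (β y) := fun y => by
    obtain ⟨y', hy'⟩ := hmap y
    have e1 : ap g₁ (pt e P a y) = pt e P a y' := by
      rw [hg₁def, ap_mul, hy', hK₀def, ap_kron, hh₀x, ap_one]
    show _ = pt e P a (hT.dd p (ap g₁ (pt e P a y)))
    rw [e1, dd_pt, hap, one_smul]
  -- the adjoint
  let L : (Fin d → F) →ₗ[F] (Fin d → F) :=
    (hT.dd a).comp ((apEquiv g₁⁻¹).toLinearMap.comp (ptr e P (-p)))
  have hLx : ∀ x, hT.dd a (ap g₁⁻¹ x) = L (hT.dd a x) := by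
    have hpair : ∀ x y, f₂ (hT.dd a (ap g₁⁻¹ x)) y = f₂ (hT.dd a x) (β y) := fun x y => by
      rw [← hT.f_pt', ← hT.f_pt', ← hβ, ← mem_isom_iff.mp (hM.le_isom hg₁) (ap g₁⁻¹ x),
        ap_ap_inv]
    intro x
    refine hT.symm₂.eq_of_forall fun y => ?_
    show _ = f₂ (hT.dd a (ap g₁⁻¹ (pt e P (-p) (hT.dd a x)))) y
    rw [hpair, hpair, dd_pt, Symp.neg_left hT.symp₁, hT.symp₁.skew p a, hap, neg_neg, one_smul]
  have hLadj : ∀ z y, f₂ (L z) y = f₂ z (β y) := by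
    intro z y
    have hz : hT.dd a (pt e P (-p) z) = z := by
      rw [dd_pt, Symp.neg_left hT.symp₁, hT.symp₁.skew p a, hap, neg_neg, one_smul]
    rw [← hz, ← hLx, ← hT.f_pt', ← hT.f_pt', ← hβ,
      ← mem_isom_iff.mp (hM.le_isom hg₁) (ap g₁⁻¹ _), ap_ap_inv]
  obtain ⟨ν, hν⟩ := hT.cen_scalar hM ha (S := β.comp L)
    ⟨g₁ * kron e P (Symp.T hT.symp₁ a 1) (1 : GL (Fin d) F) * g₁⁻¹,
      mul_mem (mul_mem hg₁ (hT.kron_mem_M hM (Symp.T_mem_isom hT.symp₁ a 1) (one_mem _)))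
        (inv_mem hg₁), fun x => by
      rw [ap_mul, ap_mul, hT.ap_kron_T, one_smul, ap_add, ap_ap_inv, hLx, hβ]
      rfl⟩
  have hβinj : Function.Injective β := (injective_iff_map_eq_zero _).mpr fun y hy => by
    have := hβ y
    rw [hy, pt_zero_right] at this
    by_contra hne
    exact ap_ne_zero g₁ (pt_ne_zero e P ha hne) this
  have hLinj : Function.Injective L := (injective_iff_map_eq_zero _).mpr fun z hz => by
    by_contra hne
    obtain ⟨b, hb⟩ := hT.symm₂.exists_ne hne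
    obtain ⟨y, rfl⟩ := LinearMap.surjective_of_injective hβinj b
    exact hb (by rw [← hLadj, hz, hT.symm₂.zero_left])
  have hν0 : ν ≠ 0 := fun h => by
    have h1 := hν v₀
    rw [h, zero_smul, LinearMap.comp_apply] at h1
    exact hv₀0 (hLinj ((hβinj (h1.trans (map_zero β).symm)).trans (map_zero L).symm))
  have hsim : ∀ y y', f₂ (β y) (β y') = ν * f₂ y y' := by
    intro y y'
    have hb : L (β y) = ν • y := hβinj (by
      rw [map_smul]; exact hν (β y))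
    rw [← hLadj, hb, hT.symm₂.smul_left]
  set b : GL (Fin d) F := ofEquiv (LinearEquiv.ofInjectiveEndo β hβinj) with hb
  have apb : ∀ y, ap b y = β y := fun y => by rw [hb, ap_ofEquiv]; rfl
  obtain ⟨h₁, hh₁, hh₁a⟩ := hT.exists_similitude₁ (inv_ne_zero hν0) ha ha
  have hK₁ : kron e P h₁ b ∈ H₀ ⊓ isom f := ⟨kron_mem e P h₁ b,
    hT.kron_similitude (inv_mul_cancel₀ hν0) hh₁ fun y y' => by rw [apb, apb, hsim]⟩
  refine hT.mem_of_mul_inv hM hK₁.1 (hT.mem_of_fix hM ha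
    (mul_mem (inv_mem (hM.le hK₁)) hg₁) fun y => ap_injective (kron e P h₁ b) ?_)
  rw [ap_mul, ap_ap_inv, hβ, ap_kron, hh₁a, apb]

lemma T₁_mem (u : Fin n → F) :
    kron e P (Symp.T hT.symp₁ u 1) (1 : GL (Fin d) F) ∈ M :=
  hT.kron_mem_M hM (Symp.T_mem_isom hT.symp₁ u 1) (one_mem _)

/-- An element commuting with a transvection of the first factor lies in the stabiliser. -/
theorem mem_of_comm_T {u : Fin n → F} (hu : u ≠ 0) {h : GL ι F} (hh : h ∈ M)
    (hc : h * kron e P (Symp.T hT.symp₁ u 1) (1 : GL (Fin d) F) =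
      kron e P (Symp.T hT.symp₁ u 1) (1 : GL (Fin d) F) * h) : h ∈ H₀ := by
  obtain ⟨p₀, hp₀⟩ := (hT.symp₁.nondegenerate u hu).1
  refine hT.mem_of_slice hM (x₀ := u) hu hh fun y =>
    ⟨hT.dd u (ap h (pt e P ((f₁ p₀ u)⁻¹ • p₀) y)), ?_⟩
  have h1 := congrArg (fun k => ap k (pt e P ((f₁ p₀ u)⁻¹ • p₀) y)) hc
  simp only [ap_mul, hT.ap_kron_T, one_smul, dd_pt, hT.symp₁.bilinear.smul_left,
    inv_mul_cancel₀ hp₀, one_smul, ap_add] at h1
  exact add_left_cancel h1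

end CfsgLib.Geometric.SympOrth.Data
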