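import Cfsg.Agent.Lib.Geometric.LinearTensorUnip
import Cfsg.Agent.Lib.Geometric.SympOrth.Slice

/-!
An element conjugating a transvection of the first factor into the stabiliser of a symplectic times
orthogonal tensor decomposition lies in the stabiliser; consequently so do the elements moving a
slice to the orthogonal of a slice.
-/

set_option autoImplicit false
set_option linter.unusedSectionVars false

namespace CfsgLib.Geometric.SympOrth.Data

open Matrix Tensor OrthTensor

variable {ι : Type} [Fintype ι] [DecidableEq ι] {F : Type*} [Field F]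
variable {f : (ι → F) → (ι → F) → F} {n d : ℕ} {e : ι ≃ Fin n × Fin d} {P : GL ι F}
  {f₁ : (Fin n → F) → (Fin n → F) → F} {f₂ : (Fin d → F) → (Fin d → F) → F}

section
variable (hT : Data f e P f₁ f₂)
include hT

/-- A factorwise map with square-zero difference from the identity has a scalar factor. -/
lemma scalar_or_scalar {a : GL (Fin n) F} {b : GL (Fin d) F}
    (h : ∀ x y, pt e P (ap a (ap a x)) (ap b (ap b y)) - (2 : F) • pt e P (ap a x) (ap b y) +
      pt e P x y = 0) :
    (∃ l : F, ∀ x, ap a x = l • x) ∨ ∃ l : F, ∀ y, ap b y = l • y := by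
  have h2 := hT.two
  by_cases hs : ∀ x, ∃ l : F, (apEquiv a).toLinearMap x = l • x
  · exact Or.inl (exists_scalar hs)
  push Not at hs
  obtain ⟨x, hx⟩ := hs
  refine Or.inr (exists_scalar (B := (apEquiv b).toLinearMap) fun y => ?_)
  have key : ∀ φ : (Fin n → F) →ₗ[F] F, φ (ap a (ap a x)) • ap b (ap b y) -
      ((2 : F) * φ (ap a x)) • ap b y + φ x • y = 0 := fun φ => by
    have := congrArg (conr e P φ) (h x y)
    simpa [smul_smul] using this
  simp only [LinearEquiv.coe_coe, apEquiv_apply] at hx ⊢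
  by_cases hy : y = 0
  · exact ⟨0, by rw [hy, ap_zero, smul_zero]⟩
  have hx0 : x ≠ 0 := fun h0 => hx 0 (by rw [h0, ap_zero, zero_smul])
  have hax : ap a x ∉ Submodule.span F {x} := fun hm => by
    obtain ⟨l, hl⟩ := Submodule.mem_span_singleton.mp hm
    exact hx l hl.symm
  by_cases hspan : ap a (ap a x) ∈ Submodule.span F {x, ap a x}
  · obtain ⟨p, q, hpq⟩ := Submodule.mem_span_pair.mp hspan
    obtain ⟨φ, hφ, hφ1⟩ := exists_functional_eq_one hax
    obtain ⟨ψ, hψ, hψ1⟩ := exists_functional_eq_one (U := Submodule.span F {ap a x}) (x := x)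
      (fun hm => by
        obtain ⟨l, hl⟩ := Submodule.mem_span_singleton.mp hm
        have hl0 : l ≠ 0 := fun h0 => hx0 (by rw [← hl, h0, zero_smul])
        exact hx l⁻¹ (by rw [eq_inv_smul_iff₀ hl0, hl]))
    have e1 := key φ
    have e2 := key ψ
    simp only [← hpq, map_add, map_smul, hφ x (Submodule.mem_span_singleton_self x), hφ1,
      hψ (ap a x) (Submodule.mem_span_singleton_self _), hψ1, smul_eq_mul, mul_zero, mul_one,
      zero_add, add_zero, zero_smul, sub_zero, one_smul] at e1 e2
    have hp : p ≠ 0 := fun h0 => by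
      rw [h0, zero_smul, zero_add] at e2
      exact hy e2
    refine ⟨q / 2 * (-p⁻¹), ?_⟩
    have e3 : ap b (ap b y) = (-p⁻¹) • y := by
      apply smul_right_injective _ hp
      show p • ap b (ap b y) = p • (-p⁻¹) • y
      rw [smul_smul, mul_neg, mul_inv_cancel₀ hp, neg_one_smul]
      exact eq_neg_of_add_eq_zero_left e2
    rw [e3, smul_smul, sub_eq_zero] at e1
    apply smul_right_injective _ h2
    show (2 : F) • ap b y = (2 : F) • (q / 2 * (-p⁻¹)) • y
    rw [← e1, smul_smul]
    congr 1
    field_simp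
  · obtain ⟨φ, hφ, hφ1⟩ := exists_functional_eq_one hspan
    have e1 := key φ
    rw [hφ1, hφ x (Submodule.subset_span (by simp)), hφ (ap a x) (Submodule.subset_span (by simp)),
      one_smul, mul_zero, zero_smul, zero_smul, sub_zero, add_zero] at e1
    have : y = 0 := ap_injective b (ap_injective b (by rw [e1, ap_zero, ap_zero]))
    exact ⟨0, by rw [this, ap_zero, smul_zero]⟩

/-- A factorwise isometry with square-zero difference from the identity is a factor isometry. -/
lemma factor_quadratic {y : GL ι F} (hy : y ∈ Cfsg.Geo.tensorProductSubgroup n d e P)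
    (hyI : y ∈ isom f) (hq : ∀ x, ap y (ap y x) - (2 : F) • ap y x + x = 0) :
    (∃ a ∈ isom f₁, y = kron e P a (1 : GL (Fin d) F)) ∨
      ∃ b ∈ isom f₂, y = kron e P (1 : GL (Fin n) F) b := by
  obtain ⟨a, b, μ, hμ, rfl, ha, hb⟩ := hT.factor hy hyI
  rcases hT.scalar_or_scalar (a := a) (b := b) fun x z => by
    simpa [ap_kron] using hq (pt e P x z) with ⟨l, hl⟩ | ⟨l, hl⟩
  · have hl0 : l ≠ 0 := fun h0 => by
      obtain ⟨u, hu⟩ := hT.exists_nonzero
      exact ap_ne_zero a hu (by rw [hl, h0, zero_smul])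
    obtain ⟨u, hu⟩ := hT.exists_nonzero
    obtain ⟨u', hu'⟩ := (hT.symp₁.nondegenerate u hu).2
    have hμl : μ = l * l := by
      have := ha u u'
      rw [hl, hl, hT.symp₁.bilinear.smul_left, hT.symp₁.bilinear.smul_right, ← mul_assoc] at this
      exact (mul_right_cancel₀ hu' this).symm
    set b' : GL (Fin d) F :=
      ofEquiv ((apEquiv b).trans (LinearEquiv.smulOfNeZero F _ l hl0)) with hb'
    have apb : ∀ z, ap b' z = l • ap b z := fun z => by rw [hb', ap_ofEquiv]; rfl
    refine Or.inr ⟨b', mem_isom_iff.mpr fun z z' => ?_, gl_ext_pt e P fun x z => ?_⟩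
    · rw [apb, apb, hT.symm₂.smul_left, hT.symm₂.smul_right, hb, hμl]
      field_simp
    · rw [ap_kron, ap_kron, ap_one, hl, apb, pt_smul_left, pt_smul_right]
  · obtain ⟨v, hv⟩ := hT.exists_aniso
    have hl0 : l ≠ 0 := fun h0 => by
      refine ap_ne_zero b (x := v) (fun h => hv (by rw [h, hT.symm₂.zero_left])) ?_
      rw [hl, h0, zero_smul]
    have hμl : μ⁻¹ = l * l := by
      have := hb v v
      rw [hl, hT.symm₂.smul_left, hT.symm₂.smul_right, ← mul_assoc] at this
      exact (mul_right_cancel₀ hv this).symm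
    set a' : GL (Fin n) F :=
      ofEquiv ((apEquiv a).trans (LinearEquiv.smulOfNeZero F _ l hl0)) with ha'
    have apa : ∀ x, ap a' x = l • ap a x := fun x => by rw [ha', ap_ofEquiv]; rfl
    refine Or.inl ⟨a', mem_isom_iff.mpr fun x x' => ?_, gl_ext_pt e P fun x z => ?_⟩
    · rw [apa, apa, hT.symp₁.bilinear.smul_left, hT.symp₁.bilinear.smul_right, ha, ← mul_assoc,
        ← mul_assoc, ← hμl, inv_mul_cancel₀ hμ, one_mul]
    · rw [ap_kron, ap_kron, ap_one, hl, apa, pt_smul_left, pt_smul_right]

/-- A conjugate of a transvection of the first factor is one plus a map of square zero. -/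
lemma quadratic_conj_T (u : Fin n → F) (g : GL ι F) (x : ι → F) :
    let y := g * kron e P (Symp.T hT.symp₁ u 1) (1 : GL (Fin d) F) * g⁻¹
    ap y (ap y x) - (2 : F) • ap y x + x = 0 := by
  intro y
  obtain ⟨z, rfl⟩ : ∃ z, ap g z = x := ⟨_, ap_ap_inv g x⟩
  simp only [y, ap_mul, ap_inv_ap, hT.ap_kron_T, one_smul, map_add, dd_pt,
    hT.symp₁.alternating, zero_smul, add_zero, pt_zero_right, ap_zero, ap_add]
  module

end

variable [Finite F] (hT : Data f e P f₁ f₂) {M : Subgroup (GL ι F)} (hM : hT.Small M)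
include hT hM

local notation "H₀" => Cfsg.Geo.tensorProductSubgroup n d e P

/-- An element carrying `T_u` to a factor isometry of the first factor lies in the stabiliser. -/
lemma mem_of_conj_T_left {u : Fin n → F} (hu : u ≠ 0) {g : GL ι F} (hg : g ∈ M)
    {a : GL (Fin n) F} (h : g * kron e P (Symp.T hT.symp₁ u 1) (1 : GL (Fin d) F) * g⁻¹ =
      kron e P a (1 : GL (Fin d) F)) : g ∈ H₀ := by
  obtain ⟨r, hr⟩ : ∃ r, ap a r - r ≠ 0 := by
    by_contra hc
    push Not at hc
    have ha1 : kron e P a (1 : GL (Fin d) F) = 1 := gl_ext_pt e P fun x z => by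
      rw [ap_kron, sub_eq_zero.mp (hc x), ap_one, ap_one]
    rw [ha1, conj_eq_one_iff] at h
    obtain ⟨p, hp⟩ := (hT.symp₁.nondegenerate u hu).1
    obtain ⟨v, hv⟩ := hT.exists_aniso
    have h1 := congrArg (fun k => ap k (pt e P p v)) h
    simp only [hT.ap_kron_T, one_smul, ap_one, dd_pt, pt_smul_right, add_eq_left,
      smul_eq_zero] at h1
    exact pt_ne_zero e P hu (fun h0 => hv (by rw [h0, hT.symm₂.zero_left])) (h1.resolve_left hp)
  have := hT.mem_of_slice hM (g := g⁻¹) (x₀ := u) hr (inv_mem hg) fun z => by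
    refine ⟨hT.dd u (ap g⁻¹ (pt e P r z)), ap_injective g ?_⟩
    have h1 := congrArg (fun k => ap k (pt e P r z)) h
    simp only [ap_mul, hT.ap_kron_T, one_smul, ap_add, ap_ap_inv, ap_kron, ap_one] at h1
    rw [ap_ap_inv, pt_sub_left, ← h1, add_sub_cancel_left]
  simpa using inv_mem this

/-- An element conjugating a transvection of the first factor into the stabiliser lies there. -/
theorem mem_of_conj_T {u : Fin n → F} (hu : u ≠ 0) {g : GL ι F} (hg : g ∈ M)
    (h : g * kron e P (Symp.T hT.symp₁ u 1) (1 : GL (Fin d) F) * g⁻¹ ∈ H₀) : g ∈ H₀ := by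
  classical
  have hg₂ := hT.symm₂
  have h2 := hT.two
  set T := kron e P (Symp.T hT.symp₁ u 1) (1 : GL (Fin d) F) with hTdef
  have hTM : T ∈ M := hT.T₁_mem hM u
  rcases hT.factor_quadratic h (hM.le_isom (mul_mem (mul_mem hg hTM) (inv_mem hg)))
    (hT.quadratic_conj_T u g) with ⟨a, -, hya⟩ | ⟨b, -, hyb⟩
  · exact hT.mem_of_conj_T_left hM hu hg hya
  -- the conjugate in the other direction is factorwise as well
  have hxH : g⁻¹ * T * g ∈ H₀ := by
    refine hT.mem_of_comm_T hM hu (mul_mem (mul_mem (inv_mem hg) hTM) hg) ?_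
    have e1 : g * T * g⁻¹ * T = T * (g * T * g⁻¹) := by
      rw [hyb, hTdef, kron_mul, kron_mul, mul_one, one_mul, one_mul, mul_one]
    calc g⁻¹ * T * g * T = g⁻¹ * (T * (g * T * g⁻¹)) * g := by group
      _ = g⁻¹ * (g * T * g⁻¹ * T) * g := by rw [e1]
      _ = T * (g⁻¹ * T * g) := by group
  rcases hT.factor_quadratic hxH (hM.le_isom (mul_mem (mul_mem (inv_mem hg) hTM) hg))
    (fun x => by simpa using hT.quadratic_conj_T u g⁻¹ x) with ⟨a, -, hxa⟩ | ⟨b₁, -, hxb⟩
  · have := hT.mem_of_conj_T_left hM hu (inv_mem hg) (a := a) (by rw [inv_inv]; exact hxa)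
    simpa using inv_mem this
  exfalso
  have hxap : ∀ z, ap (g⁻¹ * T * g) z = z + ap g⁻¹ (pt e P u (hT.dd u (ap g z))) := fun z => by
    rw [hTdef, ap_mul, ap_mul, hT.ap_kron_T, one_smul, ap_add, ap_inv_ap]
  -- a fixed vector of non-zero value of the second factor
  obtain ⟨s, hs, hbs⟩ : ∃ s, f₂ s s ≠ 0 ∧ ap b₁ s = s := by
    by_contra hc
    push Not at hc
    set K := LinearMap.ker ((apEquiv b₁).toLinearMap - LinearMap.id) with hK
    have hKm : ∀ z, z ∈ K ↔ ap b₁ z = z := fun z => by simp [hK, sub_eq_zero]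
    have hiso : ∀ z ∈ K, ∀ z' ∈ K, f₂ z z' = 0 := by
      intro z hz z' hz'
      have q : ∀ w ∈ K, f₂ w w = 0 := fun w hw => by_contra fun h0 => hc w h0 ((hKm w).mp hw)
      have := q _ (K.add_mem hz hz')
      rw [hg₂.add_left, hg₂.add_right, hg₂.add_right, q z hz, q z' hz', hg₂.symm z' z] at this
      exact (mul_eq_zero.mp (show (2 : F) * f₂ z z' = 0 by linear_combination this)).resolve_left h2
    -- totally isotropic, so of dimension at most `d / 2`
    let Ψ : K →ₗ[F] ((Fin d → F) ⧸ K) →ₗ[F] F :=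
      { toFun := fun z => K.liftQ (hg₂.fl z) fun z' hz' => by
          simpa using hiso z' hz' z z.2
        map_add' := fun z z' => Submodule.linearMap_qext _ (LinearMap.ext fun w => by
          simp [hg₂.add_right])
        map_smul' := fun t z => Submodule.linearMap_qext _ (LinearMap.ext fun w => by
          simp [hg₂.smul_right]) }
    have hΨ : Function.Injective Ψ := (injective_iff_map_eq_zero _).mpr fun z hz => by
      refine Subtype.ext (hg₂.eq_of_forall fun w => ?_)
      rw [ZeroMemClass.coe_zero, hg₂.zero_left, hg₂.symm]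
      exact LinearMap.congr_fun hz (Submodule.Quotient.mk w)
    have hk := LinearMap.finrank_le_finrank_of_injective hΨ
    rw [Subspace.dual_finrank_eq] at hk
    have hk2 := Submodule.finrank_quotient_add_finrank K
    rw [Module.finrank_fin_fun] at hk2
    -- the fixed space of the conjugate is large
    set Φ := (hT.dd u).comp (apEquiv g).toLinearMap with hΦ
    have hrn := Φ.finrank_range_add_finrank_ker
    have hrange := Submodule.finrank_le (LinearMap.range Φ)
    rw [Module.finrank_fin_fun] at hrange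
    rw [Module.finrank_fintype_fun_eq_card, Fintype.card_congr e, Fintype.card_prod,
      Fintype.card_fin, Fintype.card_fin] at hrn
    have hrow : ∀ (φ : (Fin n → F) →ₗ[F] F) (x : ι → F),
        conr e P φ (ap (kron e P (1 : GL (Fin n) F) b₁) x) = ap b₁ (conr e P φ x) := fun φ x =>
      LinearMap.congr_fun (ext_pt e P
        (f := (conr e P φ).comp (apEquiv (kron e P (1 : GL (Fin n) F) b₁)).toLinearMap)
        (g := (apEquiv b₁).toLinearMap.comp (conr e P φ)) fun p z => by simp) x
    let Θ : LinearMap.ker Φ →ₗ[F] (Fin n → K) :=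
      LinearMap.pi fun i => ((conr e P (LinearMap.proj i)).comp (LinearMap.ker Φ).subtype).codRestrict K
        fun z => by
          have hz : hT.dd u (ap g z.1) = 0 := z.2
          have h1 : ap (g⁻¹ * T * g) z.1 = z.1 := by
            rw [hxap, hz, pt_zero_right, ap_zero, add_zero]
          rw [hxb] at h1
          rw [hKm, LinearMap.comp_apply, Submodule.subtype_apply, ← hrow, h1]
    have hΘ : Function.Injective Θ := (injective_iff_map_eq_zero _).mpr fun z hz => by
      refine Subtype.ext ((coords e P).symm.injective (funext fun p => ?_))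
      have := congrFun (congrArg Subtype.val (congrFun hz p.1)) p.2
      simpa [Θ, conr_apply] using this
    have hk3 := LinearMap.finrank_le_finrank_of_injective hΘ
    rw [Module.finrank_pi_fintype, Finset.sum_const, Finset.card_univ, Fintype.card_fin,
      smul_eq_mul] at hk3
    have hn := hT.four₁
    have hd := hT.four₂
    nlinarith
  have hs0 : s ≠ 0 := fun h0 => hs (by rw [h0, hg₂.zero_left])
  -- the reflection at `s` is moved into the stabiliser
  set y' := g * hT.R s * g⁻¹ with hy'
  have hy'M : y' ∈ M := mul_mem (mul_mem hg (hM.le (hT.R_mem s))) (inv_mem hg)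
  have hcomm : g⁻¹ * T * g * hT.R s = hT.R s * (g⁻¹ * T * g) := by
    rw [hxb, R, kron_mul, kron_mul]
    congr 1
    refine gl_ext fun z => ?_
    have hI := mem_isom_iff.mp
      (show b₁ ∈ isom f₂ from mem_isom_iff.mpr fun z z' => ?_) z s
    · rw [hbs] at hI
      rw [ap_mul, ap_mul, hT.ap_r, hT.ap_r, hI, ap_sub, ap_smul, hbs]
    · have hk := mem_isom_iff.mp (hM.le_isom (mul_mem (mul_mem (inv_mem hg) hTM) hg))
      obtain ⟨p, hp⟩ := (hT.symp₁.nondegenerate u hu).2
      have h1 := hk (pt e P u z) (pt e P p z')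
      rw [hxb, ap_kron, ap_kron, ap_one, ap_one, hT.form, hT.form] at h1
      exact mul_left_cancel₀ hp h1
  have hy'H : y' ∈ H₀ := by
    refine hT.mem_of_comm_T hM hu hy'M ?_
    calc y' * T = g * (hT.R s * (g⁻¹ * T * g)) * g⁻¹ := by rw [hy']; group
      _ = g * (g⁻¹ * T * g * hT.R s) * g⁻¹ := by rw [hcomm]
      _ = T * y' := by rw [hy']; group
  obtain ⟨a, c, μ, -, hac, -, -⟩ := hT.factor hy'H (hM.le_isom hy'M)
  -- it fixes the slice of `u`
  have hfix : ∀ z, ap y' (pt e P u z) = pt e P u z := by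
    intro z
    have hc : hT.cc s (ap g⁻¹ (pt e P u z)) = 0 := hT.ext₁ fun p => by
      have h0 : hT.dd u (ap g (pt e P p s)) = 0 := by
        have h1 := hxap (pt e P p s)
        rw [hxb, ap_kron, ap_one, hbs, left_eq_add] at h1
        by_contra hne
        exact ap_ne_zero g⁻¹ (pt_ne_zero e P hu hne) h1
      rw [← hT.f_pt, ← mem_isom_iff.mp (hM.le_isom hg), ap_ap_inv, hT.symp.skew, hT.f_pt', h0,
        hg₂.zero_left, neg_zero, Symp.zero_left hT.symp₁]
    rw [hy', ap_mul, ap_mul, hT.ap_R, hc, pt_zero_left, smul_zero, sub_zero, ap_ap_inv]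
  obtain ⟨α, -, hα⟩ := exists_functional_eq_one (U := ⊥) (x := ap a u)
    (by simpa using ap_ne_zero a hu)
  have hcs : ∀ z, ap c z = α u • z := fun z => by
    have := congrArg (conr e P α) (hfix z)
    rwa [hac, ap_kron, conr_pt, conr_pt, hα, one_smul] at this
  -- so its image contains two slices
  have hy'x : ∀ x, ap y' x - x = ap g (-(2 / f₂ s s) • pt e P (hT.cc s (ap g⁻¹ x)) s) := by
    intro x
    rw [hy', ap_mul, ap_mul, hT.ap_R, ap_sub, ap_ap_inv, ap_smul, ap_smul]
    module
  set a' : (Fin n → F) →ₗ[F] (Fin n → F) := α u • (apEquiv a).toLinearMap - LinearMap.id with ha'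
  have hy'pt : ∀ x z, ap y' (pt e P x z) - pt e P x z = pt e P (a' x) z := fun x z => by
    simp [hac, hcs, ha', pt_sub_left, pt_smul_left, pt_smul_right]
  have hy'y' : ∀ x, ap y' (ap y' x) = x := fun x => by
    have hRR : hT.R s * hT.R s = 1 := by rw [R, kron_mul, one_mul, hT.r_mul_self hs, kron_one]
    rw [← ap_mul, hy', conj_mul, hRR, mul_one, mul_inv_cancel, ap_one]
  obtain ⟨r, hr⟩ : ∃ r, a' r ≠ 0 := by
    by_contra hc'
    push Not at hc'
    have h1 : y' = 1 := gl_ext_pt e P fun x z => by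
      rw [ap_one, ← sub_eq_zero, hy'pt, hc', pt_zero_left]
    rw [hy', conj_eq_one_iff] at h1
    obtain ⟨p, hp⟩ := hT.exists_nonzero
    have h3 := congrArg (fun k => ap k (pt e P p s)) h1
    simp only [R, ap_kron, ap_one, hT.ap_r_self hs, pt_neg_right] at h3
    exact pt_ne_zero e P hp hs0 ((smul_eq_zero.mp (show (2 : F) • pt e P p s = 0 by
      linear_combination (norm := module) -h3)).resolve_left h2)
  obtain ⟨r', hr'⟩ := (hT.symp₁.nondegenerate _ hr).2
  have hneg : ∀ x, ap y' (ap y' x - x) = -(ap y' x - x) := fun x => by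
    rw [ap_sub, hy'y']; abel
  have hpair : f₁ (a' r) (a' r') ≠ 0 := by
    intro h0
    obtain ⟨v, hv⟩ := hT.exists_aniso
    have h1 : f (ap y' (pt e P r v) - pt e P r v) (ap y' (pt e P r' v) - pt e P r' v) =
        -(2 * f (ap y' (pt e P r v) - pt e P r v) (pt e P r' v)) := by
      have h3 := mem_isom_iff.mp (hM.le_isom hy'M) (ap y' (pt e P r v) - pt e P r v)
        (pt e P r' v)
      rw [hneg, Symp.neg_left hT.symp] at h3
      rw [Symp.sub_right hT.symp]
      linear_combination -h3
    rw [hy'pt, hy'pt, hT.form, hT.form, h0, zero_mul] at h1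
    exact mul_ne_zero h2 (mul_ne_zero hr' hv) (by linear_combination h1)
  let S : (Fin d → F) × (Fin d → F) →ₗ[F] (Fin n → F) := (hT.cc s).comp
    ((apEquiv g⁻¹).toLinearMap.comp ((ptr e P (a' r)).coprod (ptr e P (a' r'))))
  have hS : Function.Injective S := (injective_iff_map_eq_zero _).mpr fun p hp => by
    set X := pt e P (a' r) p.1 + pt e P (a' r') p.2 with hX
    have hX' : X = ap y' (pt e P r p.1 + pt e P r' p.2) - (pt e P r p.1 + pt e P r' p.2) := by
      rw [hX, ← hy'pt, ← hy'pt, ap_add]; abel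
    have hX0 : X = 0 := by
      have h1 : ap y' X = X := by
        rw [hy', ap_mul, ap_mul, hT.ap_R, show hT.cc s (ap g⁻¹ X) = 0 from hp, pt_zero_left,
          smul_zero, sub_zero, ap_ap_inv]
      rw [hX', hneg, ← hX'] at h1
      exact (smul_eq_zero.mp (show (2 : F) • X = 0 by
        linear_combination (norm := module) -h1)).resolve_left h2
    have e1 := congrArg (hT.dd (a' r')) hX0
    have e2 := congrArg (hT.dd (a' r)) hX0
    simp only [hX, map_add, dd_pt, map_zero, hT.symp₁.alternating, zero_smul, add_zero, zero_add,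
      smul_eq_zero, hpair, false_or] at e1 e2
    have hpair' : f₁ (a' r') (a' r) ≠ 0 := fun h0 => hpair ((Symp.eq_zero_comm hT.symp₁).mp h0)
    exact Prod.ext e1 (e2.resolve_left hpair')
  have hd2 := LinearMap.finrank_le_finrank_of_injective hS
  rw [Module.finrank_prod, Module.finrank_fin_fun, Module.finrank_fin_fun] at hd2
  -- while the first conjugate shows that `d ≥ n`
  obtain ⟨z₀, hz₀⟩ : ∃ z, ap b z - z ≠ 0 := by
    by_contra hc'
    push Not at hc'
    have hb1 : kron e P (1 : GL (Fin n) F) b = 1 := gl_ext_pt e P fun x z => by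
      rw [ap_kron, sub_eq_zero.mp (hc' z), ap_one, ap_one]
    rw [hb1, conj_eq_one_iff] at hyb
    obtain ⟨p, hp⟩ := (hT.symp₁.nondegenerate u hu).1
    have h1 := congrArg (fun k => ap k (pt e P p s)) hyb
    simp only [hTdef, hT.ap_kron_T, one_smul, ap_one, dd_pt, pt_smul_right, add_eq_left,
      smul_eq_zero] at h1
    exact pt_ne_zero e P hu hs0 (h1.resolve_left hp)
  let S' : (Fin n → F) →ₗ[F] (Fin d → F) := (hT.dd u).comp
    ((apEquiv g⁻¹).toLinearMap.comp (ptl e P z₀))
  have hS' : Function.Injective S' := (injective_iff_map_eq_zero _).mpr fun p hp => by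
    have h1 := congrArg (fun k => ap k (pt e P p z₀)) hyb
    simp only [hTdef, ap_mul, hT.ap_kron_T, one_smul,
      show hT.dd u (ap g⁻¹ (pt e P p z₀)) = 0 from hp, pt_zero_right, add_zero, ap_ap_inv, ap_kron,
      ap_one] at h1
    by_contra hp0
    exact hz₀ (sub_eq_zero.mpr (pt_inj_right e P hp0 h1.symm))
  have hd3 := LinearMap.finrank_le_finrank_of_injective hS'
  rw [Module.finrank_fin_fun, Module.finrank_fin_fun] at hd3
  have := hT.four₂
  omega

/-- An element moving a slice into the orthogonal of another lies in the stabiliser. -/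
theorem mem_of_ortho {v w : Fin n → F} (hv : v ≠ 0) (hw : w ≠ 0) {g : GL ι F} (hg : g ∈ M)
    (h : ∀ y y', f (ap g (pt e P v y)) (pt e P w y') = 0) : g ∈ H₀ := by
  refine hT.mem_of_conj_T hM hv hg (hT.mem_of_slice hM (x₀ := w) hw
    (mul_mem (mul_mem hg (hT.T₁_mem hM v)) (inv_mem hg)) fun y' => ⟨y', ?_⟩)
  have hc : hT.dd v (ap g⁻¹ (pt e P w y')) = 0 := hT.symm₂.eq_of_forall fun y => by
    rw [← hT.f_pt', ← mem_isom_iff.mp (hM.le_isom hg), ap_ap_inv,
      (Symp.eq_zero_comm hT.symp).mp (h y y'), hT.symm₂.zero_left]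
  rw [ap_mul, ap_mul, hT.ap_kron_T, hc, pt_zero_right, smul_zero, add_zero, ap_ap_inv]

/-- An element commuting up to a factor with an isometry of the first factor having eigenvectors
whose eigenvalues do not multiply to that factor lies in the stabiliser. -/
theorem mem_of_comm_eigen {α : GL (Fin n) F} (hα : α ∈ isom f₁) {k : GL ι F} (hk : k ∈ M) {ε : F}
    (hkz : ∀ x, ap k (ap (kron e P α (1 : GL (Fin d) F)) x) =
      ε • ap (kron e P α (1 : GL (Fin d) F)) (ap k x))
    {u w : Fin n → F} (hu : u ≠ 0) (hw : w ≠ 0) {l m : F} (hl : ap α u = l • u)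
    (hm : ap α w = m • w) (hne : l * m ≠ ε) : k ∈ H₀ := by
  refine hT.mem_of_ortho hM hu hw hk fun y y' => ?_
  set z := kron e P α (1 : GL (Fin d) F) with hz
  have hzI : z ∈ isom f := hT.kron_isom hα (one_mem _)
  have h1 : ε • ap z (ap k (pt e P u y)) = l • ap k (pt e P u y) := by
    rw [← hkz, hz, ap_kron, ap_one, hl, pt_smul_left, ap_smul]
  have h2 : ap z (pt e P w y') = m • pt e P w y' := by
    rw [hz, ap_kron, ap_one, hm, pt_smul_left]
  have h3 := mem_isom_iff.mp hzI (ap k (pt e P u y)) (pt e P w y')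
  have h4 : (l * m - ε) * f (ap k (pt e P u y)) (pt e P w y') = 0 := by
    rw [h2, hT.symp.bilinear.smul_right] at h3
    have h5 := congrArg (fun v => f v (pt e P w y')) h1
    simp only [hT.symp.bilinear.smul_left] at h5
    linear_combination ε * h3 - m * h5
  exact (mul_eq_zero.mp h4).resolve_left (sub_ne_zero.mpr hne)

end CfsgLib.Geometric.SympOrth.Data
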